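import Cfsg.Agent.Helper12.Tight
import Cfsg.Agent.Helper1.ThMain1

/-!
If a `p`-subgroup `T` is "maximal" in `Y = M T`, with `M` a normal `p'`-subgroup, then `M` is
abelian (it has no proper non-trivial `T`-invariant subgroups).
-/

namespace Cfsg.Agent.Helper12

open scoped Pointwise in
theorem abelian_of_coatom_complement {Y : Type*} [Group Y] [Finite Y] {p : ℕ} [hp : Fact p.Prime]
    (M : Subgroup Y) [hMn : M.Normal] (hM : (Nat.card M).Coprime p) (T : Subgroup Y)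
    (hT : IsPGroup p T) (hMT : M ⊔ T = ⊤) (hco : ∀ Z : Subgroup Y, T ≤ Z → Z = T ∨ Z = ⊤)
    (hTne : T ≠ ⊤) : ∀ a ∈ M, ∀ b ∈ M, a * b = b * a := by
  classical
  have hinf : M ⊓ T = ⊥ := by
    rw [eq_bot_iff]
    intro z hz
    obtain ⟨hzM, hzT⟩ := Subgroup.mem_inf.mp hz
    obtain ⟨k, hk⟩ := exists_pow_of_mem_pGroup hT hzT
    have h1 : orderOf z ∣ p ^ k := orderOf_dvd_of_pow_eq_one hk
    have h2 : orderOf z ∣ Nat.card M := by
      have h := orderOf_dvd_natCard (⟨z, hzM⟩ : M)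
      rwa [Subgroup.orderOf_mk] at h
    have h3 : orderOf z = 1 := Nat.eq_one_of_dvd_coprimes (hM.pow_right k) h2 h1
    exact Subgroup.mem_bot.mpr (orderOf_eq_one_iff.mp h3)
  have hcardY : Nat.card Y = Nat.card M * Nat.card T := by
    have h := card_sup_of_le_normalizer (A := M) (B := T)
      (by rw [Subgroup.normalizer_eq_top_iff.mpr hMn]; exact le_top) hinf
    rw [hMT] at h
    rw [← h, Subgroup.card_top]
  have hinv : ∀ Yq : Subgroup Y, Yq ≤ M → T ≤ Subgroup.normalizer (Yq : Set Y) → Yq ≠ ⊥ →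
      Yq = M := by
    intro Yq hYM hTN hne
    have hd : Yq ⊓ T = ⊥ := by
      rw [eq_bot_iff, ← hinf]; exact inf_le_inf_right T hYM
    have hc := card_sup_of_le_normalizer (A := Yq) (B := T) hTN hd
    rcases hco (Yq ⊔ T) le_sup_right with h | h
    · exfalso
      apply hne
      rw [eq_bot_iff, ← hd]
      exact le_inf le_rfl (by rw [← h]; exact le_sup_left)
    · rw [h, Subgroup.card_top, hcardY] at hc
      have hTpos : 0 < Nat.card T := Nat.card_pos
      have hcc : Nat.card M = Nat.card Yq := Nat.eq_of_mul_eq_mul_right hTpos hc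
      exact Subgroup.eq_of_le_of_card_ge hYM (le_of_eq hcc)
  have hMne : M ≠ ⊥ := by
    intro h
    apply hTne
    rw [← hMT, h, bot_sup_eq]
  have hcard1 : Nat.card M ≠ 1 := fun h => hMne (Subgroup.card_eq_one.mp h)
  obtain ⟨q, hq, hqM⟩ := Nat.exists_prime_and_dvd hcard1
  haveI : Fact q.Prime := ⟨hq⟩
  -- a `T`-invariant Sylow `q`-subgroup of `M`
  let φ : ↥T →* MulAut ↥M := (MulAut.conjNormal : Y →* MulAut ↥M).comp T.subtype
  letI act : MulAction ↥T (Sylow q ↥M) := MulAction.compHom (Sylow q ↥M) φ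
  have hnd : ¬ p ∣ Nat.card (Sylow q ↥M) := by
    intro hdvd
    have h1 := Sylow.card_dvd_index (default : Sylow q ↥M)
    have h2 : p ∣ Nat.card ↥M := (hdvd.trans h1).trans (Subgroup.index_dvd_card _)
    exact (Nat.Prime.coprime_iff_not_dvd hp.out).mp hM.symm h2
  obtain ⟨Q₀, hQ₀⟩ := hT.nonempty_fixed_point_of_prime_not_dvd_card (Sylow q ↥M) hnd
  have hfix : ∀ t : ↥T, φ t • Q₀ = Q₀ := fun t => hQ₀ t
  have hQne : (Q₀ : Subgroup ↥M) ≠ ⊥ := Q₀.ne_bot_of_dvd_card hqM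
  have hYqM : (Q₀ : Subgroup ↥M).map M.subtype = M := by
    apply hinv
    · rintro _ ⟨w, -, rfl⟩
      exact w.2
    · apply Cfsg.Agent.Helper1.le_normalizer_of_conj_mem
      rintro t ht _ ⟨w, hw, rfl⟩
      have h1 : φ ⟨t, ht⟩ • w ∈ φ ⟨t, ht⟩ • (Q₀ : Subgroup ↥M) :=
        Subgroup.smul_mem_pointwise_smul w (φ ⟨t, ht⟩) (Q₀ : Subgroup ↥M) hw
      have h2 : φ ⟨t, ht⟩ • (Q₀ : Subgroup ↥M) = (Q₀ : Subgroup ↥M) :=
        congrArg Sylow.toSubgroup (hfix ⟨t, ht⟩)
      rw [h2] at h1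
      refine ⟨φ ⟨t, ht⟩ • w, h1, ?_⟩
      show ((MulAut.conjNormal t w : ↥M) : Y) = t * w * t⁻¹
      exact MulAut.conjNormal_apply t w
    · intro h
      exact hQne ((Subgroup.map_eq_bot_iff_of_injective _ M.subtype_injective).mp h)
  have hMq : IsPGroup q ↥M := by
    intro m
    have hm : (m : Y) ∈ (Q₀ : Subgroup ↥M).map M.subtype := by rw [hYqM]; exact m.2
    obtain ⟨w, hw, hwm⟩ := hm
    have hwm' : w = m := Subtype.ext hwm
    obtain ⟨k, hk⟩ := Q₀.isPGroup' ⟨w, hw⟩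
    refine ⟨k, ?_⟩
    rw [← hwm']
    have h1 := congrArg Subtype.val hk
    simpa using h1
  haveI : Nontrivial ↥M := (Subgroup.nontrivial_iff_ne_bot M).mpr hMne
  haveI hcn : Nontrivial (Subgroup.center ↥M) := hMq.center_nontrivial
  obtain ⟨z, hz⟩ := exists_ne (1 : Subgroup.center ↥M)
  have hzc : ∀ m ∈ M, m * ((z : ↥M) : Y) = ((z : ↥M) : Y) * m := by
    intro m hm
    have h1 := Subgroup.mem_center_iff.mp z.2 ⟨m, hm⟩
    exact congrArg Subtype.val h1
  have hY₂ : M ⊓ Subgroup.centralizer (M : Set Y) = M := by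
    apply hinv _ inf_le_left
    · rw [Subgroup.normalizer_eq_top_iff.mpr inferInstance]; exact le_top
    · intro h
      have h1 : ((z : ↥M) : Y) ∈ M ⊓ Subgroup.centralizer (M : Set Y) :=
        Subgroup.mem_inf.mpr ⟨(z : ↥M).2, Subgroup.mem_centralizer_iff.mpr hzc⟩
      rw [h, Subgroup.mem_bot] at h1
      apply hz
      apply Subtype.ext
      apply Subtype.ext
      exact h1
  intro a ha b hb
  have hb' : b ∈ Subgroup.centralizer (M : Set Y) := by
    have h1 : b ∈ M ⊓ Subgroup.centralizer (M : Set Y) := by rw [hY₂]; exact hb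
    exact (Subgroup.mem_inf.mp h1).2
  exact Subgroup.mem_centralizer_iff.mp hb' a ha

end Cfsg.Agent.Helper12
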