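import Cfsg.Agent.Helper12.HHAbelian
import Cfsg.Agent.Helper12.CoatomAb
import Cfsg.Agent.Helper24.PNormalCenter
import Cfsg.Agent.Helper1.ThMain2
import Cfsg.Agent.Helper1.ThTrans
import Cfsg.Agent.Helper9.Fitting

/-!
In a group `X` whose Sylow `p`-subgroup `T` is a maximal subgroup and with `X / O_p(X)` having a
normal `p`-complement, an element `g ∈ T` outside `O_p(X)` cannot satisfy `[U, g; p-1] ≤ V` but
`[U, g] ≰ V` on a chief factor `U / V` inside `O_p(X)`.
-/

namespace Cfsg.Agent.Helper12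

open scoped commutatorElement

/-- The chief factor `U / V` as a subgroup of `X ⧸ V`. -/
abbrev chiefQ {X : Type*} [Group X] (U V : Subgroup X) [V.Normal] : Subgroup (X ⧸ V) :=
  U.map (QuotientGroup.mk' V)

theorem engel_chief_contra {X : Type*} [Group X] [Finite X] {p : ℕ} [hp : Fact p.Prime]
    (hnpc : Cfsg.HasNormalPComplement p (X ⧸ Cfsg.pCore p X))
    (T : Sylow p X) (hT : IsCoatom (T : Subgroup X))
    (g : X) (hgT : g ∈ (T : Subgroup X)) (hgO : g ∉ Cfsg.pCore p X)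
    (U V : Subgroup X) (hUV : Cfsg.IsChiefFactor U V) (hUO : U ≤ Cfsg.pCore p X)
    (hEng : Cfsg.iterCommutator U (Subgroup.zpowers g) (p - 1) ≤ V)
    (hnot : ¬ ⁅U, Subgroup.zpowers g⁆ ≤ V) : False := by
  classical
  have hpp : p.Prime := hp.out
  have hHp : IsPGroup p ↥(Cfsg.pCore p X) := Cfsg.Agent.Helper9.pCore_isPGroup p
  have hHT : Cfsg.pCore p X ≤ (T : Subgroup X) :=
    Cfsg.Agent.Helper1.normal_pgroup_le_sylow _ hHp T
  have hUp : IsPGroup p ↥U := hHp.to_le hUO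
  have hnorm := nprod_mem_of_engel hUV hUp g hEng
  obtain ⟨hlt, hUn, hVn, hmin⟩ := hUV
  have hqs : Function.Surjective (QuotientGroup.mk' V) := QuotientGroup.mk'_surjective V
  have hŪn : (chiefQ U V).Normal := hUn.map _ hqs
  have hŪp : IsPGroup p (chiefQ U V) := hUp.map _
  have hŪne : chiefQ U V ≠ ⊥ := by
    intro h
    rw [Subgroup.map_eq_bot_iff, QuotientGroup.ker_mk'] at h
    exact (not_le_of_gt hlt) h
  have hŪmin : ∀ N : Subgroup (X ⧸ V), N.Normal → N ≤ chiefQ U V →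
      N = ⊥ ∨ N = chiefQ U V := by
    intro N hN hNV
    have hN'n : (N.comap (QuotientGroup.mk' V) ⊓ U).Normal := by
      have := hN.comap (QuotientGroup.mk' V)
      infer_instance
    have hYle : V ≤ N.comap (QuotientGroup.mk' V) ⊓ U := by
      refine le_inf ?_ hlt.le
      intro y hy
      rw [Subgroup.mem_comap]
      have : QuotientGroup.mk' V y = 1 := (QuotientGroup.eq_one_iff y).mpr hy
      rw [this]; exact one_mem N
    have hNeq : N = (N.comap (QuotientGroup.mk' V) ⊓ U).map (QuotientGroup.mk' V) := by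
      apply le_antisymm
      · intro n hn
        obtain ⟨x, hx, rfl⟩ := hNV hn
        exact ⟨x, ⟨hn, hx⟩, rfl⟩
      · rintro _ ⟨x, ⟨hx, -⟩, rfl⟩
        exact hx
    rcases hmin _ hN'n hYle inf_le_right with h | h
    · left
      rw [hNeq, h, Subgroup.map_eq_bot_iff, QuotientGroup.ker_mk']
    · right
      rw [hNeq, h]
  obtain ⟨hab, hexp⟩ := minNormal_pGroup_elemAb hŪn hŪp hŪne hŪmin
  -- the conjugation action on the chief factor
  obtain ⟨ρ₀, hρ₀⟩ : ∃ ρ₀ : X →* MulAut ↥(chiefQ U V), ∀ (x : X) (w : ↥(chiefQ U V)),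
      ((ρ₀ x w : ↥(chiefQ U V)) : X ⧸ V) =
        QuotientGroup.mk' V x * w * (QuotientGroup.mk' V x)⁻¹ :=
    ⟨(MulAut.conjNormal : X ⧸ V →* MulAut ↥(chiefQ U V)).comp (QuotientGroup.mk' V),
      fun x w => MulAut.conjNormal_apply _ _⟩
  have hK1 : ∀ x : X, (∀ u ∈ U, QuotientGroup.mk' V x * QuotientGroup.mk' V u =
      QuotientGroup.mk' V u * QuotientGroup.mk' V x) → ρ₀ x = 1 := by
    intro x h
    refine MulEquiv.ext (fun w => Subtype.ext ?_)
    obtain ⟨u, hu, hw⟩ := w.2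
    rw [hρ₀]
    show QuotientGroup.mk' V x * (w : X ⧸ V) * (QuotientGroup.mk' V x)⁻¹ = (w : X ⧸ V)
    rw [← hw, h u hu, mul_inv_cancel_right]
  have hK2 : ∀ x : X, ρ₀ x = 1 → ∀ u ∈ U, QuotientGroup.mk' V x * QuotientGroup.mk' V u =
      QuotientGroup.mk' V u * QuotientGroup.mk' V x := by
    intro x h u hu
    have h1 := hρ₀ x ⟨QuotientGroup.mk' V u, Subgroup.mem_map_of_mem _ hu⟩
    rw [h] at h1
    have h2 : QuotientGroup.mk' V u =
        QuotientGroup.mk' V x * QuotientGroup.mk' V u * (QuotientGroup.mk' V x)⁻¹ := h1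
    rw [eq_mul_inv_iff_mul_eq] at h2
    exact h2.symm
  have hK3 : ∀ R : Subgroup X, IsPGroup p R → U ≤ R → ∃ z ∈ chiefQ U V, z ≠ 1 ∧
      ∀ r ∈ R, QuotientGroup.mk' V r * z = z * QuotientGroup.mk' V r := by
    intro R hR hUR
    have hRp : IsPGroup p ↥(R.map (QuotientGroup.mk' V)) := hR.map _
    have hle : chiefQ U V ≤ R.map (QuotientGroup.mk' V) := Subgroup.map_mono hUR
    have hNne : (chiefQ U V).subgroupOf (R.map (QuotientGroup.mk' V)) ≠ ⊥ := by
      intro h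
      rw [Subgroup.subgroupOf_eq_bot, disjoint_iff, inf_eq_left.mpr hle] at h
      exact hŪne h
    obtain ⟨z, hzN, hzc, hz1⟩ := Cfsg.Agent.Helper24.pgroup_normal_inf_center hRp
      ((chiefQ U V).subgroupOf (R.map (QuotientGroup.mk' V))) hNne
    refine ⟨(z : X ⧸ V), Subgroup.mem_subgroupOf.mp hzN, fun h => hz1 (Subtype.ext h), ?_⟩
    intro r hr
    have h1 := Subgroup.mem_center_iff.mp hzc
      ⟨QuotientGroup.mk' V r, Subgroup.mem_map_of_mem _ hr⟩
    exact congrArg Subtype.val h1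
  have hK4 : ∀ h ∈ Cfsg.pCore p X, ρ₀ h = 1 := by
    obtain ⟨z, hzU, hz1, hzc⟩ := hK3 (Cfsg.pCore p X) hHp hUO
    haveI hHmn : ((Cfsg.pCore p X).map (QuotientGroup.mk' V)).Normal :=
      (inferInstance : (Cfsg.pCore p X).Normal).map _ hqs
    obtain ⟨N₁, hN₁⟩ : ∃ N₁ : Subgroup (X ⧸ V), N₁ = chiefQ U V ⊓ Subgroup.centralizer
        (((Cfsg.pCore p X).map (QuotientGroup.mk' V) : Subgroup (X ⧸ V)) : Set (X ⧸ V)) :=
      ⟨_, rfl⟩
    have hN₁n : N₁.Normal := by rw [hN₁]; infer_instance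
    have hzN : z ∈ N₁ := by
      rw [hN₁]
      refine Subgroup.mem_inf.mpr ⟨hzU, Subgroup.mem_centralizer_iff.mpr ?_⟩
      rintro _ ⟨h, hh, rfl⟩
      exact hzc h hh
    rcases hŪmin N₁ hN₁n (by rw [hN₁]; exact inf_le_left) with hN | hN
    · rw [hN, Subgroup.mem_bot] at hzN
      exact absurd hzN hz1
    · intro h hh
      apply hK1
      intro u hu
      have h1 : QuotientGroup.mk' V u ∈ N₁ := by
        rw [hN]; exact Subgroup.mem_map_of_mem _ hu
      rw [hN₁] at h1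
      exact Subgroup.mem_centralizer_iff.mp (Subgroup.mem_inf.mp h1).2 _
        (Subgroup.mem_map_of_mem _ hh)
  have hK5 : ρ₀ g ≠ 1 := by
    intro h
    apply hnot
    rw [Subgroup.commutator_le]
    intro u hu z hz
    obtain ⟨k, rfl⟩ := Subgroup.mem_zpowers_iff.mp hz
    have hz1 : ρ₀ (g ^ k) = 1 := by rw [map_zpow, h, one_zpow]
    have hc := hK2 _ hz1 u hu
    rw [← QuotientGroup.eq_one_iff, commutatorElement_def]
    show QuotientGroup.mk' V (u * g ^ k * u⁻¹ * (g ^ k)⁻¹) = 1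
    rw [map_mul, map_mul, map_mul, map_inv, map_inv, ← hc, mul_inv_cancel_right, mul_inv_cancel]
  have hCH : ρ₀.ker ≤ Cfsg.pCore p X := by
    by_cases hCT : ρ₀.ker ≤ (T : Subgroup X)
    · exact Cfsg.Agent.Helper9.le_pCore (MonoidHom.normal_ker ρ₀) (T.isPGroup'.to_le hCT)
    · exfalso
      have hlt' : (T : Subgroup X) < ρ₀.ker ⊔ (T : Subgroup X) :=
        lt_of_le_of_ne le_sup_right (fun h => hCT (by rw [h]; exact le_sup_left))
      have htop : ρ₀.ker ⊔ (T : Subgroup X) = ⊤ := hT.2 _ hlt'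
      obtain ⟨z, hzU, hz1, hzc⟩ := hK3 (T : Subgroup X) T.isPGroup' (hUO.trans hHT)
      have hzall : ∀ x : X, QuotientGroup.mk' V x * z = z * QuotientGroup.mk' V x := by
        intro x
        have hle : ρ₀.ker ⊔ (T : Subgroup X) ≤
            (Subgroup.centralizer ({z} : Set (X ⧸ V))).comap (QuotientGroup.mk' V) := by
          apply sup_le
          · intro c hc
            rw [Subgroup.mem_comap, Subgroup.mem_centralizer_iff]
            intro y hy
            rw [Set.mem_singleton_iff] at hy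
            rw [hy]
            obtain ⟨u, hu, hzu⟩ := hzU
            rw [← hzu]
            exact (hK2 c (MonoidHom.mem_ker.mp hc) u hu).symm
          · intro t ht
            rw [Subgroup.mem_comap, Subgroup.mem_centralizer_iff]
            intro y hy
            rw [Set.mem_singleton_iff] at hy
            rw [hy]
            exact (hzc t ht).symm
        have hx : x ∈ (Subgroup.centralizer ({z} : Set (X ⧸ V))).comap (QuotientGroup.mk' V) :=
          hle (by rw [htop]; exact Subgroup.mem_top x)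
        rw [Subgroup.mem_comap, Subgroup.mem_centralizer_iff] at hx
        exact (hx z (Set.mem_singleton z)).symm
      obtain ⟨N₂, hN₂⟩ : ∃ N₂ : Subgroup (X ⧸ V),
          N₂ = chiefQ U V ⊓ Subgroup.center (X ⧸ V) := ⟨_, rfl⟩
      have hN₂n : N₂.Normal := by rw [hN₂]; infer_instance
      have hzN₂ : z ∈ N₂ := by
        rw [hN₂]
        refine Subgroup.mem_inf.mpr ⟨hzU, Subgroup.mem_center_iff.mpr ?_⟩
        intro y
        obtain ⟨x, rfl⟩ := hqs y
        exact hzall x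
      rcases hŪmin N₂ hN₂n (by rw [hN₂]; exact inf_le_left) with hN | hN
      · rw [hN, Subgroup.mem_bot] at hzN₂
        exact hz1 hzN₂
      · apply hK5
        apply hK1
        intro u hu
        have h1 : QuotientGroup.mk' V u ∈ N₂ := by
          rw [hN]; exact Subgroup.mem_map_of_mem _ hu
        rw [hN₂] at h1
        exact Subgroup.mem_center_iff.mp (Subgroup.mem_inf.mp h1).2 _
  -- the normal `p`-complement of `X ⧸ O_p(X)` is abelian
  obtain ⟨M, hMn, hMc, j, hMj⟩ := Cfsg.Agent.Helper1.npc_data hnpc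
  haveI := hMn
  have hqHs : Function.Surjective (QuotientGroup.mk' (Cfsg.pCore p X)) :=
    QuotientGroup.mk'_surjective _
  have hTbp : IsPGroup p ((T : Subgroup X).map (QuotientGroup.mk' (Cfsg.pCore p X))) :=
    T.isPGroup'.map _
  have hKj : ∀ x : X, x ^ (p ^ j) ∈ M.comap (QuotientGroup.mk' (Cfsg.pCore p X)) := by
    intro x
    rw [Subgroup.mem_comap, map_pow]; exact hMj _
  have hKT : M.comap (QuotientGroup.mk' (Cfsg.pCore p X)) ⊔ (T : Subgroup X) = ⊤ :=
    Cfsg.Agent.Helper1.sup_sylow_eq_top _ T j hKj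
  have hMT : M ⊔ (T : Subgroup X).map (QuotientGroup.mk' (Cfsg.pCore p X)) = ⊤ := by
    have h1 := congrArg (Subgroup.map (QuotientGroup.mk' (Cfsg.pCore p X))) hKT
    rw [Subgroup.map_sup, Subgroup.map_comap_eq_self_of_surjective hqHs,
      Subgroup.map_top_of_surjective _ hqHs] at h1
    exact h1
  have hco : ∀ Z : Subgroup (X ⧸ Cfsg.pCore p X),
      (T : Subgroup X).map (QuotientGroup.mk' (Cfsg.pCore p X)) ≤ Z →
      Z = (T : Subgroup X).map (QuotientGroup.mk' (Cfsg.pCore p X)) ∨ Z = ⊤ := by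
    intro Z hTZ
    have h1 : (T : Subgroup X) ≤ Z.comap (QuotientGroup.mk' (Cfsg.pCore p X)) := fun t ht =>
      hTZ (Subgroup.mem_map_of_mem _ ht)
    rcases eq_or_lt_of_le h1 with h | h
    · left
      rw [h, Subgroup.map_comap_eq_self_of_surjective hqHs]
    · right
      have h2 := hT.2 _ h
      rw [← Subgroup.map_comap_eq_self_of_surjective hqHs Z, h2,
        Subgroup.map_top_of_surjective _ hqHs]
  have hTbne : (T : Subgroup X).map (QuotientGroup.mk' (Cfsg.pCore p X)) ≠ ⊤ := by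
    intro h
    apply hT.1
    have h1 := congrArg (Subgroup.comap (QuotientGroup.mk' (Cfsg.pCore p X))) h
    rw [Subgroup.comap_map_eq, QuotientGroup.ker_mk', sup_eq_left.mpr hHT,
      Subgroup.comap_top] at h1
    exact h1
  have hMab := abelian_of_coatom_complement M hMc _ hTbp hMT hco hTbne
  -- the action of `X ⧸ O_p(X)` and the Hall–Higman argument
  obtain ⟨ρ, hρ⟩ : ∃ ρ : X ⧸ Cfsg.pCore p X →* MulAut ↥(chiefQ U V),
      ∀ x : X, ρ (QuotientGroup.mk' (Cfsg.pCore p X) x) = ρ₀ x :=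
    ⟨QuotientGroup.lift (Cfsg.pCore p X) ρ₀ (fun h hh => MonoidHom.mem_ker.mpr (hK4 h hh)),
      fun x => rfl⟩
  have hS : ∀ m : ↥(chiefQ U V), oprod (fun i =>
      ((ρ ((QuotientGroup.mk' (Cfsg.pCore p X) g⁻¹) ^ i) m : ↥(chiefQ U V)) : X ⧸ V)) p = 1 := by
    intro m
    obtain ⟨u, hu, hm⟩ := m.2
    have h1 : ∀ i : ℕ,
        ((ρ ((QuotientGroup.mk' (Cfsg.pCore p X) g⁻¹) ^ i) m : ↥(chiefQ U V)) : X ⧸ V) =
        QuotientGroup.mk' V ((g ^ i)⁻¹ * u * g ^ i) := by
      intro i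
      rw [← map_pow, hρ, hρ₀, ← hm]
      simp only [map_mul, map_inv, map_pow, inv_pow, inv_inv]
    have h2 : ∀ n : ℕ, oprod (fun i =>
        ((ρ ((QuotientGroup.mk' (Cfsg.pCore p X) g⁻¹) ^ i) m : ↥(chiefQ U V)) : X ⧸ V)) n =
        QuotientGroup.mk' V (nprod g u n) := by
      intro n
      induction n with
      | zero => exact (map_one _).symm
      | succ n ih =>
        show oprod _ n *
          ((ρ ((QuotientGroup.mk' (Cfsg.pCore p X) g⁻¹) ^ n) m : ↥(chiefQ U V)) : X ⧸ V) =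
            QuotientGroup.mk' V (nprod g u n * ((g ^ n)⁻¹ * u * g ^ n))
        rw [ih, h1]
        exact (map_mul _ _ _).symm
    rw [h2]
    exact (QuotientGroup.eq_one_iff _).mpr (hnorm u hu)
  have hinj : ∀ m : ↥(chiefQ U V), m ^ Nat.card M = 1 → m = 1 := by
    intro m hm
    have hmp : m ^ p = 1 := Subtype.ext (by rw [Subgroup.coe_pow]; exact hexp m.1 m.2)
    have h1 : m ^ Nat.gcd (Nat.card M) p = 1 := pow_gcd_eq_one.mpr ⟨hm, hmp⟩
    rw [Nat.Coprime.gcd_eq_one hMc, pow_one] at h1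
    exact h1
  have hc := hh_subgroup (chiefQ U V) hab ρ M hMab (QuotientGroup.mk' (Cfsg.pCore p X) g⁻¹)
    (fun a ha => hMn.conj_mem a ha _) p hpp hS hinj
  have hcomm : ∀ b ∈ M, b * QuotientGroup.mk' (Cfsg.pCore p X) g =
      QuotientGroup.mk' (Cfsg.pCore p X) g * b := by
    intro b hb
    obtain ⟨k, rfl⟩ := hqHs b
    have e : (QuotientGroup.mk' (Cfsg.pCore p X) k)⁻¹ *
        (QuotientGroup.mk' (Cfsg.pCore p X) g⁻¹ * QuotientGroup.mk' (Cfsg.pCore p X) k *
          (QuotientGroup.mk' (Cfsg.pCore p X) g⁻¹)⁻¹) =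
        QuotientGroup.mk' (Cfsg.pCore p X) (k⁻¹ * (g⁻¹ * k * g⁻¹⁻¹)) := by
      simp only [map_mul, map_inv]
    have h1 : ρ₀ (k⁻¹ * (g⁻¹ * k * g⁻¹⁻¹)) = 1 := by
      refine MulEquiv.ext (fun m => ?_)
      have h2 := hc _ hb m
      rw [e, hρ] at h2
      exact h2
    have h3 : k⁻¹ * (g⁻¹ * k * g⁻¹⁻¹) ∈ Cfsg.pCore p X := hCH (MonoidHom.mem_ker.mpr h1)
    have h4 : QuotientGroup.mk' (Cfsg.pCore p X) (k⁻¹ * (g⁻¹ * k * g⁻¹⁻¹)) = 1 :=
      (QuotientGroup.eq_one_iff _).mpr h3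
    simp only [map_mul, map_inv, inv_inv] at h4
    exact comm_of_conj_eq_one _ _ h4
  -- a normal `p`-subgroup containing `g`
  obtain ⟨N₀, hN₀⟩ : ∃ N₀ : Subgroup X, N₀ = (Subgroup.centralizer
      (M : Set (X ⧸ Cfsg.pCore p X))).comap (QuotientGroup.mk' (Cfsg.pCore p X)) := ⟨_, rfl⟩
  have hN₀n : N₀.Normal := by rw [hN₀]; infer_instance
  have hmemN₀ : ∀ d : X, d ∈ N₀ ↔ ∀ b ∈ M, b * QuotientGroup.mk' (Cfsg.pCore p X) d =
      QuotientGroup.mk' (Cfsg.pCore p X) d * b := by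
    intro d
    simp only [hN₀, Subgroup.mem_comap, Subgroup.mem_centralizer_iff, SetLike.mem_coe]
  have hgN₀ : g ∈ N₀ := (hmemN₀ g).mpr hcomm
  have hD₀n : ((T : Subgroup X) ⊓ N₀).Normal := by
    apply Subgroup.normalizer_eq_top_iff.mp
    rw [eq_top_iff, ← hKT]
    apply sup_le
    · apply Cfsg.Agent.Helper1.le_normalizer_of_conj_mem
      intro k hk d hd
      obtain ⟨hdT, hdN⟩ := Subgroup.mem_inf.mp hd
      refine Subgroup.mem_inf.mpr ⟨?_, hN₀n.conj_mem d hdN k⟩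
      have h1 : k * d * k⁻¹ * d⁻¹ ∈ Cfsg.pCore p X := by
        rw [← QuotientGroup.eq_one_iff]
        show QuotientGroup.mk' (Cfsg.pCore p X) (k * d * k⁻¹ * d⁻¹) = 1
        rw [map_mul, map_mul, map_mul, map_inv, map_inv,
          (hmemN₀ d).mp hdN (QuotientGroup.mk' (Cfsg.pCore p X) k) (Subgroup.mem_comap.mp hk),
          mul_inv_cancel_right, mul_inv_cancel]
      have h2 : k * d * k⁻¹ = (k * d * k⁻¹ * d⁻¹) * d := by group
      rw [h2]
      exact Subgroup.mul_mem _ (hHT h1) hdT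
    · apply Cfsg.Agent.Helper1.le_normalizer_of_conj_mem
      intro t ht d hd
      obtain ⟨hdT, hdN⟩ := Subgroup.mem_inf.mp hd
      exact Subgroup.mem_inf.mpr ⟨Subgroup.mul_mem _ (Subgroup.mul_mem _ ht hdT)
        (Subgroup.inv_mem _ ht), hN₀n.conj_mem d hdN t⟩
  have hD₀H : (T : Subgroup X) ⊓ N₀ ≤ Cfsg.pCore p X :=
    Cfsg.Agent.Helper9.le_pCore hD₀n (T.isPGroup'.to_le inf_le_left)
  exact hgO (hD₀H (Subgroup.mem_inf.mpr ⟨hgT, hgN₀⟩))

end Cfsg.Agent.Helper12
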