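import Cfsg.Agent.Helper12.EngelNorm
import Cfsg.Agent.Helper12.Tight

/-!
A Hall–Higman type lemma for abelian `p'`-groups: if `x` normalizes the abelian `p'`-group `A`
and `1 + x + ⋯ + x^(p-1)` vanishes on a module `W` in which `|A|` is invertible, then `[A, x]`
acts trivially on `W`.
-/

namespace Cfsg.Agent.Helper12

theorem conj_pow_mem {Γ : Type*} [Group Γ] (A : Subgroup Γ) (x : Γ)
    (hxA : ∀ a ∈ A, x * a * x⁻¹ ∈ A) :
    ∀ (n : ℕ), ∀ a ∈ A, x ^ n * a * (x ^ n)⁻¹ ∈ A := by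
  intro n
  induction n with
  | zero => intro a ha; simpa using ha
  | succ n ih =>
    intro a ha
    have h := hxA _ (ih a ha)
    have e : x ^ (n + 1) * a * (x ^ (n + 1))⁻¹ = x * (x ^ n * a * (x ^ n)⁻¹) * x⁻¹ := by
      rw [pow_succ']; group
    rw [e]; exact h

theorem hh_conj_identity {Γ : Type*} [Group Γ] (y b₁ b : Γ)
    (hc2 : b⁻¹ * (y * b₁ * y⁻¹) = (y * b₁ * y⁻¹) * b⁻¹) (hc1 : b⁻¹ * b₁⁻¹ = b₁⁻¹ * b⁻¹) :
    b₁⁻¹ * (y * b₁ * y⁻¹) * (b⁻¹ * y * b) = (b₁ * b)⁻¹ * y * (b₁ * b) := by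
  calc b₁⁻¹ * (y * b₁ * y⁻¹) * (b⁻¹ * y * b)
      = b₁⁻¹ * ((y * b₁ * y⁻¹) * b⁻¹) * y * b := by group
    _ = b₁⁻¹ * (b⁻¹ * (y * b₁ * y⁻¹)) * y * b := by rw [hc2]
    _ = (b₁⁻¹ * b⁻¹) * y * b₁ * b := by group
    _ = (b⁻¹ * b₁⁻¹) * y * b₁ * b := by rw [hc1]
    _ = (b₁ * b)⁻¹ * y * (b₁ * b) := by group

theorem hh_step_identity {Γ : Type*} [Group Γ] (b y z : Γ) :
    b⁻¹ * (y * z * b * (y * z)⁻¹) =
      (b⁻¹ * (z * b * z⁻¹)) * ((z * b * z⁻¹)⁻¹ * (y * (z * b * z⁻¹) * y⁻¹)) := by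
  group

theorem hh_abelian {Γ W : Type*} [Group Γ] [CommGroup W] (ρ : Γ →* MulAut W) (A : Subgroup Γ)
    [Finite A] (hab : ∀ a ∈ A, ∀ b ∈ A, a * b = b * a) (x : Γ)
    (hxA : ∀ a ∈ A, x * a * x⁻¹ ∈ A) (p : ℕ) (hp : p.Prime)
    (hS : ∀ m : W, ∏ i ∈ Finset.range p, ρ (x ^ i) m = 1)
    (hinj : ∀ m : W, m ^ Nat.card A = 1 → m = 1) :
    ∀ b ∈ A, ∀ m : W, ρ (b⁻¹ * (x * b * x⁻¹)) m = m := by
  classical
  haveI : Fintype A := Fintype.ofFinite A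
  have hxp : ρ (x ^ p) = 1 := by
    refine MulEquiv.ext (fun m => ?_)
    have h1 : ρ x (∏ i ∈ Finset.range p, ρ (x ^ i) m) =
        ∏ i ∈ Finset.range p, ρ (x ^ (i + 1)) m := by
      rw [map_prod]
      refine Finset.prod_congr rfl (fun i _ => ?_)
      rw [pow_succ', map_mul]; rfl
    rw [hS, map_one] at h1
    have h2 : ∏ i ∈ Finset.range (p + 1), ρ (x ^ i) m =
        (∏ i ∈ Finset.range p, ρ (x ^ (i + 1)) m) * ρ (x ^ 0) m :=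
      Finset.prod_range_succ' (fun i => ρ (x ^ i) m) p
    have h3 : ∏ i ∈ Finset.range (p + 1), ρ (x ^ i) m =
        (∏ i ∈ Finset.range p, ρ (x ^ i) m) * ρ (x ^ p) m :=
      Finset.prod_range_succ (fun i => ρ (x ^ i) m) p
    rw [h3, hS, ← h1, one_mul, one_mul, pow_zero, map_one] at h2
    exact h2
  have hconj := conj_pow_mem A x hxA
  obtain ⟨Ψ, hΨ⟩ : ∃ Ψ : ℕ → W → W,
      ∀ i m, Ψ i m = ∏ b : A, ρ ((b : Γ)⁻¹ * x ^ i * b) m :=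
    ⟨fun i m => ∏ b : A, ρ ((b : Γ)⁻¹ * x ^ i * b) m, fun i m => rfl⟩
  have h12 : ∀ m : W, ∏ i ∈ Finset.range p, Ψ i m = 1 := by
    intro m
    have h1 : ∀ b : A, ∏ i ∈ Finset.range p, ρ ((b : Γ)⁻¹ * x ^ i * b) m = 1 := by
      intro b
      have e : ∀ i, ρ ((b : Γ)⁻¹ * x ^ i * b) m = ρ (b : Γ)⁻¹ (ρ (x ^ i) (ρ (b : Γ) m)) := by
        intro i; rw [map_mul, map_mul]; rfl
      simp only [e]
      rw [show (∏ i ∈ Finset.range p, ρ (b : Γ)⁻¹ (ρ (x ^ i) (ρ (b : Γ) m))) =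
        ρ (b : Γ)⁻¹ (∏ i ∈ Finset.range p, ρ (x ^ i) (ρ (b : Γ) m)) from
          (map_prod (ρ (b : Γ)⁻¹) _ _).symm, hS, map_one]
    simp only [hΨ]
    rw [Finset.prod_comm]
    exact Finset.prod_eq_one (fun b _ => h1 b)
  have h3 : ∀ m : W, Ψ 0 m = m ^ Nat.card A := by
    intro m
    rw [hΨ]
    have e : ∀ b : A, ρ ((b : Γ)⁻¹ * x ^ 0 * b) m = m := by
      intro b
      rw [pow_zero, mul_one, inv_mul_cancel, map_one]; rfl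
    simp only [e]
    rw [Finset.prod_const, Finset.card_univ, Nat.card_eq_fintype_card]
  have h4 : ∀ (i : ℕ) (b₁ : Γ), b₁ ∈ A → ∀ m : W,
      ρ (b₁⁻¹ * (x ^ i * b₁ * (x ^ i)⁻¹)) (Ψ i m) = Ψ i m := by
    intro i b₁ hb₁ m
    rw [hΨ, map_prod]
    have e : ∀ b : A, ρ (b₁⁻¹ * (x ^ i * b₁ * (x ^ i)⁻¹)) (ρ ((b : Γ)⁻¹ * x ^ i * b) m) =
        ρ (((⟨b₁, hb₁⟩ * b : A) : Γ)⁻¹ * x ^ i * ((⟨b₁, hb₁⟩ * b : A) : Γ)) m := by
      intro b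
      have hg := hh_conj_identity (x ^ i) b₁ (b : Γ)
        (hab _ (inv_mem b.2) _ (hconj i b₁ hb₁)) (hab _ (inv_mem b.2) _ (inv_mem hb₁))
      rw [Subgroup.coe_mul]
      show _ = ρ ((b₁ * (b : Γ))⁻¹ * x ^ i * (b₁ * (b : Γ))) m
      rw [← hg, map_mul ρ (b₁⁻¹ * (x ^ i * b₁ * (x ^ i)⁻¹)) ((b : Γ)⁻¹ * x ^ i * b)]; rfl
    simp only [e]
    exact Fintype.prod_equiv (Equiv.mulLeft (⟨b₁, hb₁⟩ : A)) _ _ (fun b => rfl)
  have h5a : ∀ (i : ℕ) (b : Γ), b ∈ A → ∀ (n : ℕ) (m : W),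
      ρ (b⁻¹ * ((x ^ i) ^ n * b * ((x ^ i) ^ n)⁻¹)) (Ψ i m) = Ψ i m := by
    intro i b hb n
    induction n with
    | zero => intro m; simp
    | succ n ih =>
      intro m
      have hb₁ : (x ^ i) ^ n * b * ((x ^ i) ^ n)⁻¹ ∈ A := by
        have h := hconj (i * n) b hb
        rwa [pow_mul] at h
      have e : b⁻¹ * ((x ^ i) ^ (n + 1) * b * ((x ^ i) ^ (n + 1))⁻¹) =
          (b⁻¹ * ((x ^ i) ^ n * b * ((x ^ i) ^ n)⁻¹)) *
            (((x ^ i) ^ n * b * ((x ^ i) ^ n)⁻¹)⁻¹ *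
              (x ^ i * ((x ^ i) ^ n * b * ((x ^ i) ^ n)⁻¹) * (x ^ i)⁻¹)) := by
        rw [pow_succ']
        exact hh_step_identity b (x ^ i) ((x ^ i) ^ n)
      rw [e, map_mul, MulAut.mul_apply, h4 i _ hb₁ m, ih m]
  have h5 : ∀ i, 1 ≤ i → i < p → ∀ b ∈ A, ∀ m : W,
      ρ (b⁻¹ * (x * b * x⁻¹)) (Ψ i m) = Ψ i m := by
    intro i hi1 hip b hb m
    have hcop : Nat.Coprime i p := by
      rw [Nat.coprime_comm]
      exact (Nat.Prime.coprime_iff_not_dvd hp).mpr (Nat.not_dvd_of_pos_of_lt (by omega) hip)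
    obtain ⟨j, -, hj⟩ := Nat.exists_mul_mod_eq_one_of_coprime hcop hp.one_lt
    obtain ⟨l, hl⟩ : ∃ l, i * j = p * l + 1 := ⟨i * j / p, by
      have h := Nat.div_add_mod (i * j) p
      rw [hj] at h
      exact h.symm⟩
    have hρ : ρ ((x ^ i) ^ j) = ρ x := by
      rw [← pow_mul, hl, pow_add, pow_mul, pow_one, map_mul, map_pow, hxp, one_pow, one_mul]
    have h := h5a i b hb j m
    have e2 : ρ (b⁻¹ * ((x ^ i) ^ j * b * ((x ^ i) ^ j)⁻¹)) = ρ (b⁻¹ * (x * b * x⁻¹)) := by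
      simp only [map_mul, map_inv, hρ]
    rw [e2] at h
    exact h
  intro b hb m
  obtain ⟨p', rfl⟩ : ∃ p', p = p' + 1 := ⟨p - 1, by have := hp.pos; omega⟩
  have h6 := h12 m
  rw [Finset.prod_range_succ', h3] at h6
  have h7 : ρ (b⁻¹ * (x * b * x⁻¹)) (∏ i ∈ Finset.range p', Ψ (i + 1) m) =
      ∏ i ∈ Finset.range p', Ψ (i + 1) m := by
    rw [map_prod]
    refine Finset.prod_congr rfl (fun i hi => ?_)
    exact h5 (i + 1) (by omega) (by have := Finset.mem_range.mp hi; omega) b hb m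
  have h8 : ρ (b⁻¹ * (x * b * x⁻¹)) (m ^ Nat.card A) = m ^ Nat.card A := by
    have e1 : m ^ Nat.card A = (∏ i ∈ Finset.range p', Ψ (i + 1) m)⁻¹ := by
      rw [eq_inv_iff_mul_eq_one, mul_comm]; exact h6
    rw [e1, map_inv, h7]
  have h9 : (ρ (b⁻¹ * (x * b * x⁻¹)) m * m⁻¹) ^ Nat.card A = 1 := by
    rw [mul_pow, inv_pow, ← map_pow, h8, mul_inv_cancel]
  exact mul_inv_eq_one.mp (hinj _ h9)

/-- Ordered product `f 0 * f 1 * ⋯ * f (n-1)`. -/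
def oprod {Q : Type*} [Mul Q] [One Q] (f : ℕ → Q) : ℕ → Q
  | 0 => 1
  | n + 1 => oprod f n * f n

/-- `hh_abelian` for a commutative subgroup `B` of a group `Q`. -/
theorem hh_subgroup {Γ Q : Type*} [Group Γ] [Group Q] (B : Subgroup Q)
    (hB : ∀ a ∈ B, ∀ b ∈ B, a * b = b * a) (ρ : Γ →* MulAut ↥B) (A : Subgroup Γ) [Finite A]
    (hab : ∀ a ∈ A, ∀ b ∈ A, a * b = b * a) (x : Γ) (hxA : ∀ a ∈ A, x * a * x⁻¹ ∈ A) (p : ℕ)
    (hp : p.Prime) (hS : ∀ m : ↥B, oprod (fun i => ((ρ (x ^ i) m : ↥B) : Q)) p = 1)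
    (hinj : ∀ m : ↥B, m ^ Nat.card A = 1 → m = 1) :
    ∀ b ∈ A, ∀ m : ↥B, ρ (b⁻¹ * (x * b * x⁻¹)) m = m := by
  letI instC : CommGroup ↥B :=
    { (inferInstance : Group ↥B) with mul_comm := fun a b => Subtype.ext (hB a.1 a.2 b.1 b.2) }
  have key : ∀ (f : ℕ → ↥B) (n : ℕ),
      ((∏ i ∈ Finset.range n, f i : ↥B) : Q) = oprod (fun i => (f i : Q)) n := by
    intro f n
    induction n with
    | zero =>
      rw [Finset.prod_range_zero]; rfl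
    | succ n ih =>
      rw [Finset.prod_range_succ]
      show ((∏ i ∈ Finset.range n, f i : ↥B) : Q) * (f n : Q) =
        oprod (fun i => (f i : Q)) n * (f n : Q)
      rw [ih]
  exact hh_abelian ρ A hab x hxA p hp (fun m => Subtype.ext (by rw [key]; exact hS m)) hinj

theorem comm_of_conj_eq_one {Q : Type*} [Group Q] (a c : Q) (h : a⁻¹ * (c⁻¹ * a * c) = 1) :
    a * c = c * a := by
  have h5 : a = c⁻¹ * a * c := inv_mul_eq_one.mp h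
  calc a * c = c * (c⁻¹ * a * c) := by group
    _ = c * a := by rw [← h5]

end Cfsg.Agent.Helper12
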