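import Mathlib
import Cfsg.Prelude.Def_Local
import Cfsg.Prelude.Def_ClassificationK
import Cfsg.Agent.Helper9.ABLemma2
import Cfsg.Agent.Helper9.PConstr

/-!
In a group of even characteristic, the normalizer of a `2`-subgroup meeting the centre of a
Sylow `2`-subgroup has `F* = O_2`: climb a normalizer chain from the cyclic subgroup generated by
a `2`-central element.
-/

set_option autoImplicit false

namespace Cfsg.Agent.Helper12

open Subgroup Cfsg.Agent.Helper9

/-- `C(O_2) ≤ O_2` gives `F* = O_2`. -/
theorem genFitting_eq_pCore_of_cent {Y : Type*} [Group Y] [Finite Y]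
    (hc : centralizer (Cfsg.pCore 2 Y : Set Y) ≤ Cfsg.pCore 2 Y) :
    Cfsg.generalizedFittingSubgroup Y = Cfsg.pCore 2 Y := by
  have hpp : Cfsg.pPrimeCore 2 Y = ⊥ := by
    have h1 : Cfsg.pPrimeCore 2 Y ≤ Cfsg.pCore 2 Y := by
      intro w hw
      apply hc
      rw [Subgroup.mem_centralizer_iff]
      intro y hy
      exact (pPrimeCore_comm_pCore 2 w hw y hy).symm
    have h2 : Cfsg.pPrimeCore 2 Y ⊓ Cfsg.pCore 2 Y = ⊥ := by
      refine (Subgroup.disjoint_of_coprime_natCard ?_).eq_bot
      obtain ⟨k, hk⟩ := (IsPGroup.iff_card).mp (pCore_isPGroup (G := Y) 2)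
      rw [hk]
      exact Nat.Coprime.pow_right k (pPrimeCore_coprime 2)
    rw [← h2]; exact (inf_eq_left.mpr h1).symm
  exact genFitting_eq_pCore_of_bot 2 hpp ((layer_eq_bot_iff_centralizer_pCore_le 2 hpp).mpr hc)

/-- One step up a chain of `2`-subgroups, each normal in the next. -/
theorem genFitting_normalizer_step {G : Type*} [Group G] [Finite G] (V V' : Subgroup G)
    (hV' : IsPGroup 2 ↥V') (hVV' : V ≤ V') (hnorm : V' ≤ normalizer (V : Set G))
    (h : Cfsg.generalizedFittingSubgroup ↥(normalizer (V : Set G)) =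
      Cfsg.pCore 2 ↥(normalizer (V : Set G))) :
    Cfsg.generalizedFittingSubgroup ↥(normalizer (V' : Set G)) =
      Cfsg.pCore 2 ↥(normalizer (V' : Set G)) := by
  have hQ : IsPGroup 2 ↥((Cfsg.pCore 2 ↥(normalizer (V : Set G))).map
      (normalizer (V : Set G)).subtype) := (pCore_isPGroup 2).map _
  have hMQ : normalizer (V : Set G) ⊓ normalizer (V' : Set G) ≤
      normalizer (((Cfsg.pCore 2 ↥(normalizer (V : Set G))).map
        (normalizer (V : Set G)).subtype : Subgroup G) : Set G) :=
    inf_le_left.trans (Subgroup.le_normalizer.trans (char_map_normalizer _ _))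
  have hC : centralizer (((Cfsg.pCore 2 ↥(normalizer (V : Set G))).map
      (normalizer (V : Set G)).subtype : Subgroup G) : Set G) ⊓
      (normalizer (V : Set G) ⊓ normalizer (V' : Set G)) ≤
      (Cfsg.pCore 2 ↥(normalizer (V : Set G))).map (normalizer (V : Set G)).subtype := by
    rintro x ⟨hx1, hx2⟩
    have hxC : x ∈ normalizer (V : Set G) := hx2.1
    have hx' : (⟨x, hxC⟩ : ↥(normalizer (V : Set G))) ∈
        centralizer (Cfsg.generalizedFittingSubgroup ↥(normalizer (V : Set G)) :
          Set ↥(normalizer (V : Set G))) := by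
      rw [h, Subgroup.mem_centralizer_iff]
      intro y hy
      apply Subtype.ext
      exact Subgroup.mem_centralizer_iff.mp hx1 (y : G) (Subgroup.mem_map_of_mem _ hy)
    have h3 := centralizer_genFitting_le hx'
    rw [h] at h3
    exact ⟨_, h3, rfl⟩
  obtain ⟨hM1, hM2⟩ := pPrimeCore_layer_eq_bot_of_AxB 2 _ V'
    (normalizer (V : Set G) ⊓ normalizer (V' : Set G)) hQ hV' hMQ inf_le_right
    (le_inf hnorm Subgroup.le_normalizer)
    (le_inf (inf_le_left.trans (Subgroup.map_subtype_le _))
      (inf_le_right.trans (Subgroup.centralizer_le_normalizer _))) hC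
  have htN : ∀ (v : G) (hv : v ∈ V),
      (⟨v, Subgroup.le_normalizer (hVV' hv)⟩ : ↥(normalizer (V' : Set G))) ∈
        Cfsg.pCore 2 ↥(normalizer (V' : Set G)) := by
    intro v hv
    have hTn : (V'.subgroupOf (normalizer (V' : Set G))).Normal :=
      Subgroup.normal_subgroupOf_of_le_normalizer le_rfl
    exact le_pCore hTn hV'.comap_subtype (Subgroup.mem_subgroupOf.mpr (hVV' hv))
  apply genFitting_eq_pCore_of_bot 2
  · have hWC : (Cfsg.pPrimeCore 2 ↥(normalizer (V' : Set G))).map
        (normalizer (V' : Set G)).subtype ≤ normalizer (V : Set G) := by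
      refine le_trans ?_ (Subgroup.centralizer_le_normalizer _)
      rintro _ ⟨w, hw, rfl⟩
      rw [Subgroup.mem_centralizer_iff]
      intro y hy
      exact (congrArg Subtype.val (pPrimeCore_comm_pCore 2 w hw _ (htN y hy))).symm
    have hWle : (Cfsg.pPrimeCore 2 ↥(normalizer (V' : Set G))).map
        (normalizer (V' : Set G)).subtype ≤
        (Cfsg.pPrimeCore 2 ↥(normalizer (V : Set G) ⊓ normalizer (V' : Set G))).map
          (normalizer (V : Set G) ⊓ normalizer (V' : Set G)).subtype :=
      le_ppcOf (le_inf hWC (Subgroup.map_subtype_le _))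
        (inf_le_right.trans (Subgroup.le_normalizer.trans (char_map_normalizer _ _)))
        (ppcOf_coprime 2 _)
    rw [hM1, Subgroup.map_bot, le_bot_iff] at hWle
    exact (Subgroup.map_eq_bot_iff_of_injective _ (Subgroup.subtype_injective _)).mp hWle
  · by_contra hne
    obtain ⟨L, hL⟩ := exists_component_of_layer_ne_bot hne
    have hKC : L.map (normalizer (V' : Set G)).subtype ≤ normalizer (V : Set G) := by
      refine le_trans ?_ (Subgroup.centralizer_le_normalizer _)
      rintro _ ⟨w, hw, rfl⟩
      rw [Subgroup.mem_centralizer_iff]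
      intro y hy
      exact (congrArg Subtype.val ((comm_eq_bot_iff _ _).mp (component_comm_fitting hL) w hw _
        (pCore_le_fitting 2 (htN y hy)))).symm
    have hKM : L.map (normalizer (V' : Set G)).subtype ≤
        normalizer (V : Set G) ⊓ normalizer (V' : Set G) :=
      le_inf hKC (Subgroup.map_subtype_le _)
    have hcomp : Cfsg.IsComponent ((L.map (normalizer (V' : Set G)).subtype).subgroupOf
        (normalizer (V : Set G) ⊓ normalizer (V' : Set G))) :=
      ⟨subnormal_subgroupOf_of_map _ L hL.1 _ inf_le_right,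
        (quasi_subgroupOf_iff hKM).mpr ((quasi_map_subtype_iff _ L).mpr hL.2)⟩
    have h5 := le_layer hcomp
    rw [hM2] at h5
    exact (Subgroup.nontrivial_iff_ne_bot _).mp (quasi_nontrivial hcomp.2) (le_bot_iff.mp h5)

/-- Climbing the normalizer chain inside a `2`-group `U`. -/
theorem genFitting_normalizer_chain {G : Type*} [Group G] [Finite G] (U : Subgroup G)
    (hU : IsPGroup 2 ↥U) (V : Subgroup G) (hVU : V ≤ U)
    (h : Cfsg.generalizedFittingSubgroup ↥(normalizer (V : Set G)) =
        Cfsg.pCore 2 ↥(normalizer (V : Set G))) :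
    Cfsg.generalizedFittingSubgroup ↥(normalizer (U : Set G)) =
        Cfsg.pCore 2 ↥(normalizer (U : Set G)) := by
  induction V using WellFoundedGT.induction with
  | ind V ih =>
    by_cases hEq : V = U
    · subst hEq; exact h
    · have hnil : Group.IsNilpotent ↥U := hU.isNilpotent
      have hlt : V.subgroupOf U < ⊤ := by
        rw [lt_top_iff_ne_top, Ne, Subgroup.subgroupOf_eq_top]
        exact fun hUV => hEq (le_antisymm hVU hUV)
      have hnc := Group.normalizerCondition_of_isNilpotent (G := ↥U) (V.subgroupOf U) hlt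
      rw [← Subgroup.subgroupOf_normalizer_eq hVU] at hnc
      have hV'lt : V < U ⊓ normalizer (V : Set G) := by
        refine lt_of_le_not_ge (le_inf hVU Subgroup.le_normalizer) ?_
        intro hle
        apply not_le_of_gt hnc
        intro x hx
        rw [Subgroup.mem_subgroupOf] at hx ⊢
        exact hle ⟨x.2, hx⟩
      exact ih _ hV'lt inf_le_left (genFitting_normalizer_step V _ (hU.to_le inf_le_left)
        (le_inf hVU Subgroup.le_normalizer) inf_le_right h)

/-- In a group of even characteristic, `F*(N_G(U)) = O_2(N_G(U))` for every `2`-subgroup `U`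
containing a nontrivial element centralizing a Sylow `2`-subgroup. -/
theorem genFitting_normalizer_of_evenChar {G : Type*} [Group G] [Finite G]
    (hE : Cfsg.IsOfEvenCharacteristic G) (T : Sylow 2 G) (U : Subgroup G) (hU : IsPGroup 2 ↥U)
    (z : G) (hzU : z ∈ U) (hzT : z ∈ centralizer ((T : Subgroup G) : Set G)) (hz1 : z ≠ 1) :
    Cfsg.generalizedFittingSubgroup ↥(normalizer (U : Set G)) =
      Cfsg.pCore 2 ↥(normalizer (U : Set G)) := by
  have hV0U : Subgroup.zpowers z ≤ U := (Subgroup.zpowers_le).mpr hzU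
  have hV0p : IsPGroup 2 ↥(Subgroup.zpowers z) := hU.to_le hV0U
  have hV0ne : Subgroup.zpowers z ≠ ⊥ := (Subgroup.zpowers_ne_bot).mpr hz1
  have hTN : (T : Subgroup G) ≤ normalizer ((Subgroup.zpowers z : Subgroup G) : Set G) := by
    refine le_trans ?_ (Subgroup.centralizer_le_normalizer _)
    rw [Subgroup.le_centralizer_iff]
    exact (Subgroup.zpowers_le).mpr hzT
  have hchar := hE (normalizer ((Subgroup.zpowers z : Subgroup G) : Set G))
    ⟨Subgroup.zpowers z, hV0p, hV0ne, rfl⟩ ⟨T, hTN⟩
  exact genFitting_normalizer_chain U hU _ hV0U (genFitting_eq_pCore_of_cent hchar)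

end Cfsg.Agent.Helper12
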