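import Cfsg.Agent.Helper12.KCore

/-!
Degree bounds for iterated commutators on chief factors of a normal `p`-subgroup `P`,
from bounds on the chief factors inside a critical subgroup `Q` and inside `Z(Q)`.
-/

set_option autoImplicit false

namespace Cfsg.Agent.Helper12

open scoped commutatorElement

section CoreG

variable {G : Type*} [Group G]

/-- The filtration of `T` by the action on `A` with values in `U`, for `A`-degree `d + 1`. -/
def filtG (T A U Γ : Subgroup G) (hUn : U.Normal) (hUc : ∀ u ∈ U, ∀ t ∈ T, t * u = u * t)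
    (d m : ℕ) : Subgroup G where
  carrier := {t | t ∈ T ∧ ∀ k : ℕ, ∀ a ∈ Cfsg.iterCommutator A Γ k,
    ⁅t, a⁆ ∈ Cfsg.iterCommutator U Γ (k + m - d)}
  one_mem' := ⟨T.one_mem, fun k a _ => by
    rw [commutatorElement_one_left]; exact Subgroup.one_mem _⟩
  mul_mem' := by
    rintro t s ⟨ht, ht'⟩ ⟨hs, hs'⟩
    refine ⟨T.mul_mem ht hs, fun k a ha => ?_⟩
    have e : ⁅t * s, a⁆ = t * ⁅s, a⁆ * t⁻¹ * ⁅t, a⁆ := by
      simp only [commutatorElement_def]; group
    have hsU : ⁅s, a⁆ ∈ U := iterCommutator_le_of_normal hUn Γ _ (hs' k a ha)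
    have e2 : t * ⁅s, a⁆ * t⁻¹ = ⁅s, a⁆ := by rw [hUc _ hsU t ht, mul_inv_cancel_right]
    rw [e, e2]
    exact Subgroup.mul_mem _ (hs' k a ha) (ht' k a ha)
  inv_mem' := by
    rintro t ⟨ht, ht'⟩
    refine ⟨T.inv_mem ht, fun k a ha => ?_⟩
    have e : ⁅t⁻¹, a⁆ = t⁻¹ * (⁅t, a⁆)⁻¹ * t := by
      simp only [commutatorElement_def]; group
    have htU : ⁅t, a⁆ ∈ U := iterCommutator_le_of_normal hUn Γ _ (ht' k a ha)
    have h := hUc _ (U.inv_mem htU) t ht
    have e2 : t⁻¹ * (⁅t, a⁆)⁻¹ * t = (⁅t, a⁆)⁻¹ := by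
      rw [mul_assoc, ← h, inv_mul_cancel_left]
    rw [e, e2]
    exact Subgroup.inv_mem _ (ht' k a ha)

theorem filtG_step {T A U Γ : Subgroup G} (hTn : T.Normal) (hAn : A.Normal) (hUn : U.Normal)
    (hUc : ∀ u ∈ U, ∀ t ∈ T, t * u = u * t) (hUA : ∀ u ∈ U, ∀ a ∈ A, a * u = u * a)
    {d m : ℕ} {t γ : G}
    (ht : t ∈ filtG T A U Γ hUn hUc d m) (hγ : γ ∈ Γ) :
    ⁅t, γ⁆ ∈ filtG T A U Γ hUn hUc d (m + 1) := by
  obtain ⟨htT, ht'⟩ := ht
  refine ⟨?_, fun k a ha => ?_⟩
  · have e : ⁅t, γ⁆ = t * (γ * t⁻¹ * γ⁻¹) := by simp only [commutatorElement_def]; group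
    rw [e]
    exact T.mul_mem htT (hTn.conj_mem _ (T.inv_mem htT) γ)
  · have hc : ⁅a⁻¹, γ⁻¹⁆ ∈ Cfsg.iterCommutator A Γ (k + 1) :=
      Subgroup.commutator_mem_commutator (Subgroup.inv_mem _ ha) (Subgroup.inv_mem _ hγ)
    have hx := ht' k a ha
    have hy := ht' (k + 1) _ hc
    have hxU : ⁅t, a⁆ ∈ U := iterCommutator_le_of_normal hUn Γ _ hx
    have hyU : ⁅t, ⁅a⁻¹, γ⁻¹⁆⁆ ∈ U := iterCommutator_le_of_normal hUn Γ _ hy
    have haA : a ∈ A := iterCommutator_le_of_normal hAn Γ k ha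
    have hxyU : (⁅t, a⁆ * ⁅t, ⁅a⁻¹, γ⁻¹⁆⁆)⁻¹ ∈ U := U.inv_mem (U.mul_mem hxU hyU)
    have key := comm_identity t γ a ⁅t, a⁆ ⁅t, ⁅a⁻¹, γ⁻¹⁆⁆ ⁅a⁻¹, γ⁻¹⁆ rfl rfl rfl
      (hUc _ hxyU t htT) (hUA _ hyU a haA) (hUc _ (hUn.conj_mem _ hxyU γ) t htT)
    rw [key]
    refine Subgroup.mul_mem _ ?_ ?_
    · have h6 := conj_mem_iterCommutator hUn hγ (Subgroup.inv_mem _ hy)
      exact iterCommutator_antitone hUn Γ (by omega : k + (m + 1) - d ≤ k + 1 + m - d) h6
    · have h5 : ⁅γ, (⁅t, a⁆)⁻¹⁆ ∈ Cfsg.iterCommutator U Γ (k + m - d + 1) := by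
        rw [← commutatorElement_inv]
        exact Subgroup.inv_mem _
          (Subgroup.commutator_mem_commutator (Subgroup.inv_mem _ hx) hγ)
      exact iterCommutator_antitone hUn Γ (by omega : k + (m + 1) - d ≤ k + m - d + 1) h5

theorem coreG (T A U Γ : Subgroup G) (hTn : T.Normal) (hAn : A.Normal) (hUn : U.Normal)
    (hUc : ∀ u ∈ U, ∀ t ∈ T, t * u = u * t) (hUA : ∀ u ∈ U, ∀ a ∈ A, a * u = u * a)
    (d j : ℕ)
    (hAd : ∀ a ∈ Cfsg.iterCommutator A Γ (d + 1), ∀ t ∈ T, ⁅t, a⁆ = 1)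
    (hUj : Cfsg.iterCommutator U Γ j = ⊥)
    (hX : ∀ t ∈ T, ∀ a ∈ A, ⁅t, a⁆ ∈ U) :
    ∀ x ∈ Cfsg.iterCommutator T Γ (d + j), ∀ a ∈ A, ⁅x, a⁆ = 1 := by
  have h0 : T ≤ filtG T A U Γ hUn hUc d 0 := by
    intro t ht
    refine ⟨ht, fun k a ha => ?_⟩
    rcases Nat.lt_or_ge k (d + 1) with h | h
    · have e : k + 0 - d = 0 := by omega
      rw [e]
      exact hX t ht a (iterCommutator_le_of_normal hAn Γ k ha)
    · rw [hAd a (iterCommutator_antitone hAn Γ h ha) t ht]
      exact Subgroup.one_mem _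
  have hind : ∀ m, Cfsg.iterCommutator T Γ m ≤ filtG T A U Γ hUn hUc d m := by
    intro m
    induction m with
    | zero => exact h0
    | succ m ih =>
      show ⁅Cfsg.iterCommutator T Γ m, Γ⁆ ≤ _
      rw [Subgroup.commutator_le]
      intro t ht γ hγ
      exact filtG_step hTn hAn hUn hUc hUA (ih ht) hγ
  intro x hx a ha
  have h4 := (hind (d + j) hx).2 0 a ha
  have e : 0 + (d + j) - d = j := by omega
  rw [e, hUj] at h4
  exact Subgroup.mem_bot.1 h4

theorem coreG_mod (T A U V Γ : Subgroup G) (hTn : T.Normal) (hAn : A.Normal) (hUn : U.Normal)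
    (hVn : V.Normal) (hUT : ⁅U, T⁆ ≤ V) (hUA : ⁅U, A⁆ ≤ V) (d j : ℕ)
    (hAd : ∀ a ∈ Cfsg.iterCommutator A Γ (d + 1), ∀ t ∈ T, ⁅t, a⁆ ∈ V)
    (hUj : Cfsg.iterCommutator U Γ j ≤ V)
    (hX : ∀ t ∈ T, ∀ a ∈ A, ⁅t, a⁆ ∈ U) :
    ∀ x ∈ Cfsg.iterCommutator T Γ (d + j), ∀ a ∈ A, ⁅x, a⁆ ∈ V := by
  have := hVn
  have hsurj := QuotientGroup.mk'_surjective V
  have hcomm : ∀ (B : Subgroup G), ⁅U, B⁆ ≤ V → ∀ u ∈ U.map (QuotientGroup.mk' V),
      ∀ b ∈ B.map (QuotientGroup.mk' V), b * u = u * b := by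
    rintro B hB _ ⟨u, hu, rfl⟩ _ ⟨t, ht, rfl⟩
    have h1 : (QuotientGroup.mk' V) ⁅u, t⁆ = 1 :=
      (QuotientGroup.eq_one_iff _).2 (hB (Subgroup.commutator_mem_commutator hu ht))
    have e : u * t = ⁅u, t⁆ * (t * u) := by simp only [commutatorElement_def]; group
    have h2 := congrArg (QuotientGroup.mk' V) e
    rw [map_mul, map_mul, h1, one_mul, map_mul] at h2
    exact h2.symm
  have hq := coreG (T.map (QuotientGroup.mk' V)) (A.map (QuotientGroup.mk' V))
    (U.map (QuotientGroup.mk' V)) (Γ.map (QuotientGroup.mk' V))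
    (hTn.map _ hsurj) (hAn.map _ hsurj) (hUn.map _ hsurj) (hcomm T hUT) (hcomm A hUA) d j
    (by
      intro a ha
      rw [← iterCommutator_map] at ha
      obtain ⟨a, ha, rfl⟩ := ha
      rintro _ ⟨t, ht, rfl⟩
      rw [← map_commutatorElement]
      exact (QuotientGroup.eq_one_iff _).2 (hAd a ha t ht))
    (by
      have h := Subgroup.map_mono (f := QuotientGroup.mk' V) hUj
      rw [iterCommutator_map, QuotientGroup.map_mk'_self] at h
      exact le_bot_iff.1 h)
    (by
      rintro _ ⟨t, ht, rfl⟩ _ ⟨a, ha, rfl⟩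
      rw [← map_commutatorElement]
      exact Subgroup.mem_map_of_mem _ (hX t ht a ha))
  intro x hx a ha
  have h1 : (QuotientGroup.mk' V) x ∈ Cfsg.iterCommutator (T.map (QuotientGroup.mk' V))
      (Γ.map (QuotientGroup.mk' V)) (d + j) := by
    rw [← iterCommutator_map]
    exact Subgroup.mem_map_of_mem _ hx
  have h2 := hq _ h1 _ (Subgroup.mem_map_of_mem _ ha)
  rw [← map_commutatorElement] at h2
  exact (QuotientGroup.eq_one_iff _).1 h2

end CoreG

section GoodG

variable {Y : Type*} [Group Y]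

/-- Every chief factor `U / V` covered by `N` satisfies `[U, Γ; n] ≤ V`. -/
def engelGoodN (Γ : Subgroup Y) (n : ℕ) (N : Subgroup Y) : Prop :=
  ∀ U V : Subgroup Y, Cfsg.IsChiefFactor U V → U ≤ V ⊔ N → Cfsg.iterCommutator U Γ n ≤ V

theorem engelGoodN_mono {Γ : Subgroup Y} {n : ℕ} {N N' : Subgroup Y} (h : N' ≤ N)
    (hN : engelGoodN Γ n N) : engelGoodN Γ n N' :=
  fun U V hch hle => hN U V hch (hle.trans (sup_le_sup_left h V))

theorem engelGoodN_step {Γ : Subgroup Y} {n : ℕ} {N N' : Subgroup Y} (hN'n : N'.Normal)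
    (hN' : engelGoodN Γ n N') (hIC : Cfsg.iterCommutator N Γ n ≤ N') : engelGoodN Γ n N := by
  intro U V hch hle
  by_cases h : U ≤ V ⊔ N'
  · exact hN' U V hch h
  · have hXn : (U ⊓ (V ⊔ N')).Normal := by
      have := hch.2.1
      have := hch.2.2.1
      infer_instance
    rcases hch.2.2.2 (U ⊓ (V ⊔ N')) hXn (le_inf hch.1.le le_sup_left) inf_le_left with h1 | h1
    · have h2 : Cfsg.iterCommutator U Γ n ≤ U ⊓ (V ⊔ N') :=
        le_inf (iterCommutator_le_of_normal hch.2.1 Γ n)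
          ((iterCommutator_mono hle le_rfl n).trans
            ((iterCommutator_sup_le hch.2.2.1 n).trans (sup_le_sup_left hIC V)))
      rw [h1] at h2
      exact h2
    · exact absurd (inf_eq_left.1 h1) h

/-- If all chief factors inside the normal subgroup `N` are bounded, then `N` is good. -/
theorem engelGoodN_of_chief {Γ : Subgroup Y} {n : ℕ} {N : Subgroup Y} (hNn : N.Normal)
    (h : ∀ U V : Subgroup Y, Cfsg.IsChiefFactor U V → U ≤ N → Cfsg.iterCommutator U Γ n ≤ V) :
    engelGoodN Γ n N := by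
  intro U V hch hle
  have hUn := hch.2.1
  have hVn := hch.2.2.1
  have hU : U ≤ V ⊔ (U ⊓ N) := by
    intro u hu
    have h1 : u ∈ ((V ⊔ N : Subgroup Y) : Set Y) := hle hu
    rw [Subgroup.normal_mul] at h1
    obtain ⟨v, hv, n', hn', hvn⟩ := h1
    have hvn' : v * n' = u := hvn
    have hn'U : n' ∈ U := by
      have e : n' = v⁻¹ * u := by rw [← hvn', inv_mul_cancel_left]
      rw [e]
      exact U.mul_mem (U.inv_mem (hch.1.le hv)) hu
    rw [← hvn']
    exact Subgroup.mul_mem_sup hv (Subgroup.mem_inf.2 ⟨hn'U, hn'⟩)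
  have hUNn : (U ⊓ N).Normal := inferInstance
  have hVNn : (V ⊓ N).Normal := inferInstance
  have hch' : Cfsg.IsChiefFactor (U ⊓ N) (V ⊓ N) := by
    refine ⟨?_, hUNn, hVNn, ?_⟩
    · refine lt_of_le_of_ne (inf_le_inf_right N hch.1.le) ?_
      intro heq
      have h2 : U ≤ V := by
        refine hU.trans ?_
        rw [← heq]
        exact sup_le le_rfl inf_le_left
      exact absurd h2 (not_le_of_gt hch.1)
    · intro K hKn hVK hKU
      have hVKn : (V ⊔ K).Normal := inferInstance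
      rcases hch.2.2.2 (V ⊔ K) hVKn le_sup_left (sup_le hch.1.le (hKU.trans inf_le_left))
        with h1 | h1
      · left
        refine le_antisymm ?_ hVK
        exact le_inf (by rw [← h1]; exact le_sup_right) (hKU.trans inf_le_right)
      · right
        refine le_antisymm hKU ?_
        intro x hx
        obtain ⟨hxU, hxN⟩ := Subgroup.mem_inf.1 hx
        have h2 : x ∈ ((V ⊔ K : Subgroup Y) : Set Y) := by rw [h1]; exact hxU
        rw [Subgroup.normal_mul] at h2
        obtain ⟨v, hv, k, hk, hvk⟩ := h2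
        have hvk' : v * k = x := hvk
        have hvN : v ∈ N := by
          have e : v = x * k⁻¹ := by rw [← hvk', mul_inv_cancel_right]
          rw [e]
          exact N.mul_mem hxN (N.inv_mem ((hKU.trans inf_le_right) hk))
        rw [← hvk']
        exact K.mul_mem (hVK (Subgroup.mem_inf.2 ⟨hv, hvN⟩)) hk
  have h2 := h (U ⊓ N) (V ⊓ N) hch' inf_le_right
  calc Cfsg.iterCommutator U Γ n ≤ Cfsg.iterCommutator (V ⊔ (U ⊓ N)) Γ n :=
        iterCommutator_mono hU le_rfl n
    _ ≤ V ⊔ Cfsg.iterCommutator (U ⊓ N) Γ n := iterCommutator_sup_le hVn n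
    _ ≤ V ⊔ (V ⊓ N) := sup_le_sup_left h2 V
    _ = V := sup_inf_self

theorem exists_chief_below_kc [Finite Y] {W : Subgroup Y} (hWn : W.Normal) (hW : W ≠ ⊥) :
    ∃ W' : Subgroup Y, Cfsg.IsChiefFactor W W' := by
  obtain ⟨W', ⟨hW'n, hW'lt⟩, hmax⟩ := wellFounded_gt.has_min
    {N : Subgroup Y | N.Normal ∧ N < W} ⟨⊥, Subgroup.normal_bot, bot_lt_iff_ne_bot.2 hW⟩
  refine ⟨W', hW'lt, hWn, hW'n, fun N hNn hle hNW => ?_⟩
  by_cases h1 : N = W
  · exact Or.inr h1
  · left
    by_contra h2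
    exact hmax N ⟨hNn, lt_of_le_of_ne hNW h1⟩ (lt_of_le_of_ne hle (Ne.symm h2))

theorem exists_chief_above [Finite Y] {R Q : Subgroup Y} (hRn : R.Normal) (hQn : Q.Normal)
    (hRQ : R < Q) : ∃ R' : Subgroup Y, R' ≤ Q ∧ Cfsg.IsChiefFactor R' R := by
  obtain ⟨R', ⟨hR'n, hR'lt, hR'Q⟩, hmin⟩ := wellFounded_lt.has_min
    {N : Subgroup Y | N.Normal ∧ R < N ∧ N ≤ Q} ⟨Q, hQn, hRQ, le_rfl⟩
  refine ⟨R', hR'Q, hR'lt, hR'n, hRn, fun N hNn hle hNR' => ?_⟩
  by_cases h1 : N = R
  · exact Or.inl h1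
  · right
    by_contra h2
    exact hmin N ⟨hNn, lt_of_le_of_ne hle (Ne.symm h1), hNR'.trans hR'Q⟩
      (lt_of_le_of_ne hNR' h2)

/-- A normal `p`-subgroup centralizes every chief factor inside it. -/
theorem commutator_le_of_chief [Finite Y] {p : ℕ} [Fact p.Prime] {P W W' : Subgroup Y}
    (hPn : P.Normal) (hPp : IsPGroup p ↥P) (hch : Cfsg.IsChiefFactor W W') (hWP : W ≤ P) :
    ⁅W, P⁆ ≤ W' := by
  have hWn := hch.2.1
  have hW'n := hch.2.2.1
  by_contra hcon
  have hcn : (⁅W, P⁆).Normal := Subgroup.commutator_normal _ _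
  have hsn : (W' ⊔ ⁅W, P⁆).Normal := inferInstance
  rcases hch.2.2.2 (W' ⊔ ⁅W, P⁆) hsn le_sup_left
    (sup_le hch.1.le (Subgroup.commutator_le_left W P)) with h1 | h1
  · exact hcon (by rw [← h1]; exact le_sup_right)
  · have hind : ∀ m, W ≤ W' ⊔ Cfsg.iterCommutator W P m := by
      intro m
      induction m with
      | zero => exact le_sup_right
      | succ m ih =>
        have h2 : ⁅W, P⁆ ≤ W' ⊔ Cfsg.iterCommutator W P (m + 1) := by
          have h3 : ⁅W, P⁆ ≤ Cfsg.iterCommutator (W' ⊔ Cfsg.iterCommutator W P m) P 1 :=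
            Subgroup.commutator_mono ih le_rfl
          have h4 := iterCommutator_sup_le (V := W') (N := Cfsg.iterCommutator W P m) (K := P)
            hW'n 1
          exact h3.trans h4
        calc W = W' ⊔ ⁅W, P⁆ := h1.symm
          _ ≤ W' ⊔ Cfsg.iterCommutator W P (m + 1) := sup_le le_sup_left h2
    obtain ⟨m, hm⟩ := iterCommutator_self_eq_bot hPp
    have h5 := iterCommutator_mono hWP (le_refl P) m
    rw [hm] at h5
    have h6 := hind m
    rw [le_bot_iff.1 h5, sup_bot_eq] at h6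
    exact absurd h6 (not_le_of_gt hch.1)

theorem engelG_chief [Finite Y] {p : ℕ} [Fact p.Prime] (P Q Γ : Subgroup Y) (hPn : P.Normal)
    (hPp : IsPGroup p ↥P) (hQn : Q.Normal) (hQP : Q ≤ P)
    (hPQ : ⁅P, Q⁆ ≤ Q ⊓ Subgroup.centralizer (Q : Set Y))
    (hCQ : P ⊓ Subgroup.centralizer (Q : Set Y) ≤ Q)
    (i j : ℕ) (hi : 1 ≤ i)
    (hQi : ∀ U V : Subgroup Y, Cfsg.IsChiefFactor U V → U ≤ Q →
      Cfsg.iterCommutator U Γ i ≤ V)
    (hZj : ∀ U V : Subgroup Y, Cfsg.IsChiefFactor U V →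
      U ≤ Q ⊓ Subgroup.centralizer (Q : Set Y) → Cfsg.iterCommutator U Γ j ≤ V) :
    ∀ U V : Subgroup Y, Cfsg.IsChiefFactor U V → U ≤ P →
      Cfsg.iterCommutator U Γ (i + j - 1) ≤ V := by
  obtain ⟨d, rfl⟩ : ∃ d, i = d + 1 := ⟨i - 1, by omega⟩
  have hn : d + 1 + j - 1 = d + j := by omega
  rw [hn]
  have hZn : (Q ⊓ Subgroup.centralizer (Q : Set Y)).Normal := by
    have := hQn
    infer_instance
  have hZP : Q ⊓ Subgroup.centralizer (Q : Set Y) ≤ P := inf_le_left.trans hQP
  have hgZ : engelGoodN Γ (d + j) (Q ⊓ Subgroup.centralizer (Q : Set Y)) :=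
    engelGoodN_of_chief hZn (fun U V hch hU =>
      (iterCommutator_antitone hch.2.1 Γ (by omega : j ≤ d + j)).trans (hZj U V hch hU))
  have hA : ∀ W : Subgroup Y, ∀ hWn : W.Normal, W ≤ Q ⊓ Subgroup.centralizer (Q : Set Y) →
      engelGoodN Γ (d + j) (commSub P Q W hWn) := by
    intro W
    induction W using WellFoundedLT.induction with
    | ind W ih =>
      intro hWn hWZ
      by_cases hW : W = ⊥
      · apply engelGoodN_mono _ hgZ
        intro t ht
        obtain ⟨ht1, ht2⟩ := ht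
        have htc : t ∈ Subgroup.centralizer (Q : Set Y) := by
          rw [Subgroup.mem_centralizer_iff]
          intro a ha
          have h1 := ht2 a ha
          rw [hW] at h1
          have h2 := commutatorElement_eq_one_iff_commute.1 (Subgroup.mem_bot.1 h1)
          exact h2.eq.symm
        exact Subgroup.mem_inf.2 ⟨hCQ (Subgroup.mem_inf.2 ⟨ht1, htc⟩), htc⟩
      · obtain ⟨W', hch⟩ := exists_chief_below_kc hWn hW
        have hW'n := hch.2.2.1
        have hWj : Cfsg.iterCommutator W Γ j ≤ W' := hZj W W' hch hWZ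
        have hWP : ⁅W, P⁆ ≤ W' := commutator_le_of_chief hPn hPp hch (hWZ.trans hZP)
        have hgood' : engelGoodN Γ (d + j) (commSub P Q W' hW'n) :=
          ih W' hch.1 hW'n (hch.1.le.trans hWZ)
        have hB : ∀ R : Subgroup Y, ∀ hRn : R.Normal, R ≤ Q →
            engelGoodN Γ (d + j) (commSub P Q W hWn ⊓ commSub P R W' hW'n) := by
          intro R
          induction R using WellFoundedGT.induction with
          | ind R ihR =>
            intro hRn hRQ
            by_cases hR : R = Q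
            · subst hR
              exact engelGoodN_mono inf_le_right hgood'
            · obtain ⟨R', hR'Q, hchR⟩ := exists_chief_above hRn hQn (lt_of_le_of_ne hRQ hR)
              have hR'n := hchR.2.1
              have hRi : Cfsg.iterCommutator R' Γ (d + 1) ≤ R := hQi R' R hchR hR'Q
              have hg' := ihR R' hchR.1 hR'n hR'Q
              have hEn : (commSub P Q W hWn ⊓ commSub P R W' hW'n).Normal := by
                have := commSub_normal hPn hQn hWn
                have := commSub_normal hPn hRn hW'n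
                infer_instance
              have hE'n : (commSub P Q W hWn ⊓ commSub P R' W' hW'n).Normal := by
                have := commSub_normal hPn hQn hWn
                have := commSub_normal hPn hR'n hW'n
                infer_instance
              have hEP : commSub P Q W hWn ⊓ commSub P R W' hW'n ≤ P :=
                fun t ht => (Subgroup.mem_inf.1 ht).1.1
              apply engelGoodN_step hE'n hg'
              intro x hx
              have hxE := iterCommutator_le_of_normal hEn Γ (d + j) hx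
              have hcore := coreG_mod (commSub P Q W hWn ⊓ commSub P R W' hW'n) R' W W' Γ
                hEn hR'n hWn hW'n ((Subgroup.commutator_mono le_rfl hEP).trans hWP)
                (by
                  rw [Subgroup.commutator_le]
                  intro w hw r hr
                  have hwc := (Subgroup.mem_inf.1 (hWZ hw)).2
                  rw [Subgroup.mem_centralizer_iff] at hwc
                  have h1 : ⁅w, r⁆ = 1 :=
                    commutatorElement_eq_one_iff_commute.2 (hwc r (hR'Q hr)).symm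
                  rw [h1]
                  exact Subgroup.one_mem _)
                d j
                (fun a ha t ht => (Subgroup.mem_inf.1 ht).2.2 a (hRi ha))
                hWj
                (fun t ht a ha => (Subgroup.mem_inf.1 ht).1.2 a (hR'Q ha))
              exact Subgroup.mem_inf.2 ⟨(Subgroup.mem_inf.1 hxE).1,
                (Subgroup.mem_inf.1 hxE).1.1, fun a ha => hcore x hx a ha⟩
        have hB0 := hB ⊥ Subgroup.normal_bot bot_le
        apply engelGoodN_mono _ hB0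
        intro t ht
        refine Subgroup.mem_inf.2 ⟨ht, ht.1, fun a ha => ?_⟩
        rw [Subgroup.mem_bot.1 ha, commutatorElement_one_right]
        exact Subgroup.one_mem _
  have hgP := hA _ hZn le_rfl
  intro U V hch hUP
  apply hgP U V hch
  refine hUP.trans (le_trans ?_ le_sup_right)
  intro t ht
  exact ⟨ht, fun a ha => hPQ (Subgroup.commutator_mem_commutator ht ha)⟩

/-- A subgroup of a normal subgroup `P` whose trace on `P` is characteristic is normal. -/
theorem normal_of_subgroupOf_characteristic {P Q : Subgroup Y} [P.Normal] (hQP : Q ≤ P)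
    (h : (Q.subgroupOf P).Characteristic) : Q.Normal := by
  refine ⟨fun x hx g => ?_⟩
  have h1 := (Subgroup.characteristic_iff_le_comap.1 h) (MulAut.conjNormal g : MulAut ↥P)
  have h2 : (⟨x, hQP hx⟩ : ↥P) ∈ Q.subgroupOf P := Subgroup.mem_subgroupOf.2 hx
  have h3 := h1 h2
  have h4 : ((MulAut.conjNormal g (⟨x, hQP hx⟩ : ↥P) : ↥P) : Y) ∈ Q := Subgroup.mem_subgroupOf.1 h3
  rw [MulAut.conjNormal_apply] at h4
  exact h4

end GoodG

end Cfsg.Agent.Helper12
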