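import Cfsg.Agent.Helper12.KQuad

/-!
The lower K-infinity functor: the quadratic local hypothesis for weak closure of `p`-th powers.
-/

set_option autoImplicit false

namespace Cfsg.Agent.Helper12

universe u

section KQuad2

variable {p : ℕ} [Fact p.Prime]

/-- The quadratic local hypothesis for the lower K-infinity functor (any prime). -/
theorem kInf_wce_hloc2 {G : Type u} [Group G] [Finite G] (H T : Subgroup G)
    (hTH : T ≤ H) (hTp : IsPGroup p ↥T) (hidx : ¬ p ∣ T.relIndex H)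
    (hnn : ¬ H ≤ Subgroup.normalizer
      ((Cfsg.inducedFunctor Cfsg.kInfLower T : Subgroup G) : Set G)) :
    ∃ g : G, g ∈ T ∧ g ∉ Cfsg.pCoreOf p H ∧
      ⁅⁅Cfsg.pCoreOf p H ⊓ Subgroup.centralizer ((Cfsg.pCoreOf p H : Subgroup G) : Set G),
        Subgroup.zpowers g⁆, Subgroup.zpowers g⁆ = ⊥ := by
  have hcp : Cfsg.IsCharPFunctor.{u} p Cfsg.kInfLower := kInfLower_charP p
  have hT'p : IsPGroup p ↥(T.subgroupOf H) := hTp.comap_subtype
  have hT'idx : ¬ p ∣ (T.subgroupOf H).index := hidx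
  obtain ⟨S', hS'⟩ : ∃ S' : Sylow p ↥H, (S' : Subgroup ↥H) = T.subgroupOf H :=
    ⟨hT'p.toSylow hT'idx, IsPGroup.toSylow_coe _ _⟩
  have hS'map : (S' : Subgroup ↥H).map H.subtype = T := by
    rw [hS']; exact Subgroup.map_subgroupOf_eq_of_le hTH
  have hWmap : Cfsg.inducedFunctor Cfsg.kInfLower T =
      (Cfsg.inducedFunctor Cfsg.kInfLower (S' : Subgroup ↥H)).map H.subtype := by
    rw [← hS'map]
    exact inducedFunctor_map hcp H.subtype (S' : Subgroup ↥H) S'.isPGroup'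
      (fun x _ hx => Subtype.ext hx)
  have hn : ¬ (Cfsg.inducedFunctor Cfsg.kInfLower (S' : Subgroup ↥H)).Normal := by
    intro hnorm
    apply hnn
    intro h hh
    apply mem_normalizer_of_conj_mem
    intro w hw
    rw [hWmap] at hw ⊢
    obtain ⟨w', hw', rfl⟩ := Subgroup.mem_map.1 hw
    exact Subgroup.mem_map.2 ⟨⟨h, hh⟩ * w' * ⟨h, hh⟩⁻¹, hnorm.conj_mem w' hw' ⟨h, hh⟩, rfl⟩
  obtain ⟨g', hg'S, hg'Q, hquad⟩ := kInf_quadratic S' hn
  have hPo : Cfsg.pCoreOf p H = (Cfsg.pCore p ↥H).map H.subtype := rfl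
  refine ⟨(g' : G), ?_, ?_, ?_⟩
  · rw [hS', Subgroup.mem_subgroupOf] at hg'S; exact hg'S
  · rw [hPo]
    intro hmem
    obtain ⟨k, hk, hkg⟩ := Subgroup.mem_map.1 hmem
    have hkg' : k = g' := Subtype.ext hkg
    rw [hkg'] at hk
    exact hg'Q hk
  · rw [hPo]
    have h2 : ⁅⁅Cfsg.pCore p ↥H ⊓
        Subgroup.centralizer ((Cfsg.pCore p ↥H : Subgroup ↥H) : Set ↥H),
        Subgroup.zpowers g'⁆, Subgroup.zpowers g'⁆ = ⊥ := hquad
    have h1 := congrArg (Subgroup.map H.subtype) h2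
    rw [Subgroup.map_bot, Subgroup.map_commutator, Subgroup.map_commutator,
      map_inf_centralizer _ H.subtype_injective, MonoidHom.map_zpowers] at h1
    exact h1

end KQuad2

end Cfsg.Agent.Helper12
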