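import Cfsg.Agent.Helper12.SecEngel

/-!
The structure of a minimal failure of control of transfer.
-/

namespace Cfsg.Agent.Helper12

universe u

open scoped commutatorElement

section F3

/-- If `Q / D` is central and `Q ∩ H' ≤ D` for a subgroup `H ≥ Q` of index prime to `p`, then
`Q ∩ G' ≤ D`. -/
theorem inf_commutator_le_of_central {G : Type*} [Group G] [Finite G] {p : ℕ} [hp : Fact p.Prime]
    (H Q D : Subgroup G) [hQn : Q.Normal] (hQH : Q ≤ H) (hQp : IsPGroup p Q)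
    (hidx : ¬ p ∣ H.index)
    (hQG : ∀ u ∈ Q, ∀ t : G, u⁻¹ * (t⁻¹ * u * t) ∈ D)
    (hQH' : Q ⊓ ⁅H, H⁆ ≤ D) : ∀ u ∈ Q, u ∈ commutator G → u ∈ D := by
  intro u hu hc
  classical
  have hfin : Fintype (G ⧸ H) := Fintype.ofFinite _
  have h1 : MonoidHom.transfer (Abelianization.of : ↥H →* Abelianization ↥H)
      ((⟨u, hu⟩ : ↥Q) : G) = 1 := Abelianization.commutator_subset_ker _ hc
  rw [transfer_eq_prod_chi H Q Abelianization.of hQH ⟨u, hu⟩] at h1
  have h2 : ∀ q : G ⧸ H, chi H Q Abelianization.of hQH q.out ⟨u, hu⟩ =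
      Abelianization.of (Subgroup.inclusion hQH ⟨u, hu⟩) *
        ((Abelianization.of : ↥H →* Abelianization ↥H).comp (Subgroup.inclusion hQH))
          ((⟨u, hu⟩ : ↥Q)⁻¹ * MulAut.conjNormal (q.out)⁻¹ ⟨u, hu⟩) := by
    intro q
    rw [chi_apply, MonoidHom.comp_apply, ← map_mul, ← map_mul, mul_inv_cancel_left]
  simp only [h2] at h1
  rw [Finset.prod_mul_distrib, Finset.prod_const, Finset.card_univ] at h1
  have h3 : ∏ q : G ⧸ H,
      ((Abelianization.of : ↥H →* Abelianization ↥H).comp (Subgroup.inclusion hQH))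
        ((⟨u, hu⟩ : ↥Q)⁻¹ * MulAut.conjNormal (q.out)⁻¹ ⟨u, hu⟩) ∈
      Subgroup.map ((Abelianization.of : ↥H →* Abelianization ↥H).comp (Subgroup.inclusion hQH))
        (D.subgroupOf Q) := by
    refine Subgroup.prod_mem _ fun q _ => Subgroup.mem_map_of_mem _ ?_
    rw [Subgroup.mem_subgroupOf]
    have := hQG u hu q.out
    simpa [MulAut.conjNormal_apply] using this
  obtain ⟨d, hd, hde⟩ := h3
  rw [← hde, ← map_pow, MonoidHom.comp_apply, ← map_mul] at h1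
  have h4 : Subgroup.inclusion hQH (⟨u, hu⟩) ^ Fintype.card (G ⧸ H) * Subgroup.inclusion hQH d ∈
      commutator ↥H := by
    rw [← Abelianization.ker_of]; exact h1
  have h5 : u ^ Fintype.card (G ⧸ H) * (d : G) ∈ ⁅H, H⁆ := by
    rw [commutator_eq_map_subtype]
    exact ⟨_, by rw [← commutator_def]; exact h4, by simp⟩
  have h6 : u ^ Fintype.card (G ⧸ H) * (d : G) ∈ D :=
    hQH' (Subgroup.mem_inf.2 ⟨mul_mem (pow_mem hu _) d.2, h5⟩)
  have h7 : u ^ Fintype.card (G ⧸ H) ∈ D := by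
    have := mul_mem h6 (inv_mem (Subgroup.mem_subgroupOf.mp hd))
    rwa [mul_inv_cancel_right] at this
  have hcard : Fintype.card (G ⧸ H) = H.index := by
    rw [Subgroup.index_eq_card, Nat.card_eq_fintype_card]
  have hcop : (Fintype.card (G ⧸ H)).Coprime (orderOf u) := by
    obtain ⟨k, hk⟩ := hQp ⟨u, hu⟩
    have hk' : u ^ p ^ k = 1 := by
      have := congrArg Subtype.val hk
      simpa using this
    have hdvd : orderOf u ∣ p ^ k := orderOf_dvd_of_pow_eq_one hk'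
    rw [hcard]
    exact Nat.Coprime.coprime_dvd_right hdvd
      (Nat.Coprime.pow_right k ((Nat.Prime.coprime_iff_not_dvd hp.out).mpr hidx).symm)
  obtain ⟨m, hm⟩ := exists_pow_eq_self_of_coprime hcop
  rw [← hm]; exact pow_mem h7 m

end F3

section MF

variable {p : ℕ} [Fact p.Prime] {𝓦 : Set (∀ (Q : Type u) [Group Q], Subgroup Q)}

/-- Control at one Sylow subgroup `T` of a constrained group from `O_p ∩ G' ≤ J(T)`. -/
theorem tCtl_at_of_pCore (h𝓦 : ∀ W ∈ 𝓦, Cfsg.IsCharPFunctor.{u} p W) {Y : Type u} [Group Y]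
    [Finite Y] (hsub : ∀ X : Subgroup Y, X ≠ ⊤ → tCtl p 𝓦 ↥X)
    (hquot : Cfsg.pCore p Y ≠ ⊥ → tCtl p 𝓦 (Y ⧸ Cfsg.pCore p Y))
    (hcen : Subgroup.centralizer ((Cfsg.pCore p Y : Subgroup Y) : Set Y) ≤ Cfsg.pCore p Y)
    (T : Sylow p Y)
    (hkey : Cfsg.pCore p Y ⊓ ⁅(⊤ : Subgroup Y), (⊤ : Subgroup Y)⁆ ≤
      tJ (indFam 𝓦 Y) (T : Subgroup Y)) :
    (T : Subgroup Y) ⊓ ⁅(⊤ : Subgroup Y), (⊤ : Subgroup Y)⁆ ≤
      tJ (indFam 𝓦 Y) (T : Subgroup Y) := by
  intro c hc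
  obtain ⟨hcT, hcY'⟩ := Subgroup.mem_inf.1 hc
  by_cases hQ : Cfsg.pCore p Y = ⊥
  · have h1 : c ∈ Cfsg.pCore p Y := by
      apply hcen
      rw [Subgroup.mem_centralizer_iff]
      intro h hh
      have hh' : h ∈ Cfsg.pCore p Y := hh
      rw [hQ, Subgroup.mem_bot] at hh'
      rw [hh', one_mul, mul_one]
    exact hkey (Subgroup.mem_inf.2 ⟨h1, hcY'⟩)
  have hF : ∀ W ∈ 𝓦, (T : Subgroup Y) ⊓
      ⁅(Subgroup.normalizer ((Cfsg.inducedFunctor W
        ((T : Subgroup Y).map (QuotientGroup.mk' (Cfsg.pCore p Y))) :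
          Subgroup (Y ⧸ Cfsg.pCore p Y)) : Set (Y ⧸ Cfsg.pCore p Y))).comap
        (QuotientGroup.mk' (Cfsg.pCore p Y)),
      (Subgroup.normalizer ((Cfsg.inducedFunctor W
        ((T : Subgroup Y).map (QuotientGroup.mk' (Cfsg.pCore p Y))) :
          Subgroup (Y ⧸ Cfsg.pCore p Y)) : Set (Y ⧸ Cfsg.pCore p Y))).comap
        (QuotientGroup.mk' (Cfsg.pCore p Y))⁆ ≤ tJ (indFam 𝓦 Y) (T : Subgroup Y) := by
    intro W hW
    by_cases hX : (Subgroup.normalizer ((Cfsg.inducedFunctor W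
        ((T : Subgroup Y).map (QuotientGroup.mk' (Cfsg.pCore p Y))) :
          Subgroup (Y ⧸ Cfsg.pCore p Y)) : Set (Y ⧸ Cfsg.pCore p Y))).comap
        (QuotientGroup.mk' (Cfsg.pCore p Y)) = ⊤
    · intro x hx
      have hTQ := le_pCore_of_comap_normalizer_eq_top (h𝓦 W hW) T hX
      exact hkey (Subgroup.mem_inf.2 ⟨hTQ (Subgroup.mem_inf.1 hx).1,
        Subgroup.commutator_mono le_top le_top (Subgroup.mem_inf.1 hx).2⟩)
    · refine tCtl_subgroup h𝓦 _ (hsub _ hX) T ?_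
      intro t ht
      rw [Subgroup.mem_comap]
      have hconj' := isConjugacyFunctor_induced (G := Y ⧸ Cfsg.pCore p Y) (h𝓦 W hW)
      have hTp' : IsPGroup p ((T : Subgroup Y).map (QuotientGroup.mk' (Cfsg.pCore p Y))) :=
        T.2.map _
      exact (Subgroup.le_normalizer.trans (cf_normalizer_le hconj' hTp'))
        (Subgroup.mem_map_of_mem _ ht)
  obtain ⟨j, hj, q, hq, rfl⟩ := tCtl_quot_pCore T (hquot hQ) hF hc
  exact mul_mem hj (hkey hq)

/-- An Engel element outside `O_p` gives `O_p ∩ G' ≤ J(T)` when transfer is controlled in all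
proper subgroups. -/
theorem pCore_inf_commutator_le_of_engel (h𝓦 : ∀ W ∈ 𝓦, Cfsg.IsCharPFunctor.{u} p W)
    {Y : Type u} [Group Y] [Finite Y] (hsub : ∀ X : Subgroup Y, X ≠ ⊤ → tCtl p 𝓦 ↥X)
    (T : Sylow p Y) {g : Y} (hgT : g ∈ (T : Subgroup Y)) (hgQ : g ∉ Cfsg.pCore p Y)
    (heng' : ∀ U V : Subgroup Y, Cfsg.IsChiefFactor U V → U ≤ Cfsg.pCore p Y →
      Cfsg.iterCommutator U (Subgroup.zpowers g) (p - 1) ≤ V) :
    Cfsg.pCore p Y ⊓ ⁅(⊤ : Subgroup Y), (⊤ : Subgroup Y)⁆ ≤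
      tJ (indFam 𝓦 Y) (T : Subgroup Y) := by
  have hQp : IsPGroup p (Cfsg.pCore p Y) := Cfsg.Agent.Helper9.pCore_isPGroup p
  have hQT : Cfsg.pCore p Y ≤ (T : Subgroup Y) := hQp.le_sylow_of_normal T
  have hET : {s : Y | s ∈ (T : Subgroup Y) ∧ ∃ x : Y, s = x * g * x⁻¹} ⊆ (T : Subgroup Y) :=
    fun s hs => hs.1
  have hFT : Subgroup.closure {s : Y | s ∈ (T : Subgroup Y) ∧ ∃ x : Y, s = x * g * x⁻¹} ≤
      (T : Subgroup Y) := (Subgroup.closure_le _).mpr hET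
  have hgE : g ∈ {s : Y | s ∈ (T : Subgroup Y) ∧ ∃ x : Y, s = x * g * x⁻¹} :=
    ⟨hgT, 1, by group⟩
  have hFp : IsPGroup p ↥(Subgroup.closure
      {s : Y | s ∈ (T : Subgroup Y) ∧ ∃ x : Y, s = x * g * x⁻¹}) := T.2.to_le hFT
  have hconjE : ∀ c : Y, (∀ s ∈ {s : Y | s ∈ (T : Subgroup Y) ∧ ∃ x : Y, s = x * g * x⁻¹},
      c * s * c⁻¹ ∈ (T : Subgroup Y)) →
      c ∈ Subgroup.normalizer ((Subgroup.closure
        {s : Y | s ∈ (T : Subgroup Y) ∧ ∃ x : Y, s = x * g * x⁻¹} : Subgroup Y) : Set Y) := by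
    intro c hc
    apply mem_normalizer_of_conj_mem
    have hle : Subgroup.closure {s : Y | s ∈ (T : Subgroup Y) ∧ ∃ x : Y, s = x * g * x⁻¹} ≤
        (Subgroup.closure {s : Y | s ∈ (T : Subgroup Y) ∧ ∃ x : Y, s = x * g * x⁻¹}).comap
          (MulAut.conj c).toMonoidHom := by
      rw [Subgroup.closure_le]
      intro s hs
      apply Subgroup.subset_closure
      refine ⟨hc s hs, ?_⟩
      obtain ⟨-, x, rfl⟩ := hs
      exact ⟨c * x, by simp [mul_assoc]⟩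
    intro f hf
    exact hle hf
  have hTM : (T : Subgroup Y) ≤ Subgroup.normalizer ((Subgroup.closure
      {s : Y | s ∈ (T : Subgroup Y) ∧ ∃ x : Y, s = x * g * x⁻¹} : Subgroup Y) : Set Y) := by
    intro c hc
    exact hconjE c fun s hs => mul_mem (mul_mem hc hs.1) (inv_mem hc)
  have hMne : Subgroup.normalizer ((Subgroup.closure
      {s : Y | s ∈ (T : Subgroup Y) ∧ ∃ x : Y, s = x * g * x⁻¹} : Subgroup Y) : Set Y) ≠ ⊤ := by
    intro htop
    have hFn := Subgroup.normalizer_eq_top_iff.mp htop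
    exact hgQ (Cfsg.Agent.Helper9.le_pCore hFn hFp (Subgroup.subset_closure hgE))
  have hfix : ∀ t : Y, (∀ f ∈ {s : Y | s ∈ (T : Subgroup Y) ∧ ∃ x : Y, s = x * g * x⁻¹},
      t⁻¹ * f * t ∈ Subgroup.normalizer ((Subgroup.closure
        {s : Y | s ∈ (T : Subgroup Y) ∧ ∃ x : Y, s = x * g * x⁻¹} : Subgroup Y) : Set Y)) →
      t ∈ Subgroup.normalizer ((Subgroup.closure
        {s : Y | s ∈ (T : Subgroup Y) ∧ ∃ x : Y, s = x * g * x⁻¹} : Subgroup Y) : Set Y) := by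
    intro t ht
    have hF'M : (Subgroup.closure {s : Y | s ∈ (T : Subgroup Y) ∧ ∃ x : Y, s = x * g * x⁻¹}).map
        (MulAut.conj t⁻¹).toMonoidHom ≤ Subgroup.normalizer ((Subgroup.closure
        {s : Y | s ∈ (T : Subgroup Y) ∧ ∃ x : Y, s = x * g * x⁻¹} : Subgroup Y) : Set Y) := by
      rw [Subgroup.map_le_iff_le_comap, Subgroup.closure_le]
      intro f hf
      have := ht f hf
      simpa using this
    have hF'p : IsPGroup p ↥((Subgroup.closure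
        {s : Y | s ∈ (T : Subgroup Y) ∧ ∃ x : Y, s = x * g * x⁻¹}).map
        (MulAut.conj t⁻¹).toMonoidHom) := hFp.map _
    obtain ⟨m, hm, hmT⟩ := exists_conj_mem_sylow_of_le T hTM hF'p hF'M
    have h1 : m * t⁻¹ ∈ Subgroup.normalizer ((Subgroup.closure
        {s : Y | s ∈ (T : Subgroup Y) ∧ ∃ x : Y, s = x * g * x⁻¹} : Subgroup Y) : Set Y) := by
      apply hconjE
      intro s hs
      have h2 := hmT (t⁻¹ * s * t) ⟨s, Subgroup.subset_closure hs, by simp⟩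
      have e : m * t⁻¹ * s * (m * t⁻¹)⁻¹ = m * (t⁻¹ * s * t) * m⁻¹ := by group
      rw [e]; exact h2
    have h3 := mul_mem (inv_mem hm) h1
    rw [inv_mul_cancel_left] at h3
    exact inv_mem_iff.mp h3
  have hnorm : ∀ X' Y' : Subgroup Y, Cfsg.IsChiefFactor X' Y' → X' ≤ Cfsg.pCore p Y →
      ∀ s ∈ {s : Y | s ∈ (T : Subgroup Y) ∧ ∃ x : Y, s = x * g * x⁻¹}, ∀ u ∈ X',
        nprod s u p ∈ Y' := by
    intro X' Y' hch hle s hs u hu
    obtain ⟨-, x, rfl⟩ := hs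
    have h1 := heng' X' Y' hch hle
    have h2 := Subgroup.map_mono (f := (MulAut.conj x).toMonoidHom) h1
    rw [iterCommutator_map, map_conj_eq_of_normal hch.2.1, map_conj_eq_of_normal hch.2.2.1,
      MonoidHom.map_zpowers] at h2
    exact nprod_mem_of_engel hch (hQp.to_le hle) (x * g * x⁻¹) h2 u hu
  have hA := inf_commutator_le_of_engel (Subgroup.normalizer ((Subgroup.closure
      {s : Y | s ∈ (T : Subgroup Y) ∧ ∃ x : Y, s = x * g * x⁻¹} : Subgroup Y) : Set Y))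
    (Cfsg.pCore p Y) (hQT.trans hTM) _ (hET.trans hTM) hFp hfix hnorm
  intro u hu
  obtain ⟨huQ, huc⟩ := Subgroup.mem_inf.1 hu
  have h1 := hA u huQ (by rw [commutator_def]; exact huc)
  exact tCtl_subgroup h𝓦 _ (hsub _ hMne) T hTM (Subgroup.mem_inf.2 ⟨hQT huQ, h1⟩)

/-- The structure of a minimal failure of control of transfer. -/
theorem min_fail_structure (h𝓦 : ∀ W ∈ 𝓦, Cfsg.IsCharPFunctor.{u} p W) (hne : 𝓦.Nonempty)
    {G : Type u} [Group G] [Finite G] (S : Sylow p G)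
    (hsub : ∀ X : Subgroup G, X ≠ ⊤ → tCtl p 𝓦 ↥X)
    (hq1 : Cfsg.pPrimeCore p G ≠ ⊥ → tCtl p 𝓦 (G ⧸ Cfsg.pPrimeCore p G))
    (hq2 : Cfsg.pCore p G ≠ ⊥ → tCtl p 𝓦 (G ⧸ Cfsg.pCore p G))
    (hfailS : ¬ ((S : Subgroup G) ⊓ ⁅(⊤ : Subgroup G), (⊤ : Subgroup G)⁆ ≤
      tJ (indFam 𝓦 G) (S : Subgroup G))) :
    Subgroup.centralizer ((Cfsg.pCore p G : Subgroup G) : Set G) ≤ Cfsg.pCore p G ∧
    (Subgroup.normalizer ((tJ (indFam 𝓦 G) (S : Subgroup G) ⊓ Cfsg.pCore p G : Subgroup G) :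
        Set G) ≠ ⊤ ∧
      ∀ H : Subgroup G, (S : Subgroup G) ≤ H → H ≠ ⊤ →
        H ≤ Subgroup.normalizer ((tJ (indFam 𝓦 G) (S : Subgroup G) ⊓ Cfsg.pCore p G :
          Subgroup G) : Set G)) ∧
    (⁅Cfsg.pCore p G, Subgroup.normalizer ((tJ (indFam 𝓦 G) (S : Subgroup G) ⊓ Cfsg.pCore p G :
        Subgroup G) : Set G)⁆ ≤ Cfsg.pCore p G ⊓
        ⁅Subgroup.normalizer ((tJ (indFam 𝓦 G) (S : Subgroup G) ⊓ Cfsg.pCore p G :
          Subgroup G) : Set G),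
        Subgroup.normalizer ((tJ (indFam 𝓦 G) (S : Subgroup G) ⊓ Cfsg.pCore p G :
          Subgroup G) : Set G)⁆ ∧
      Cfsg.pCore p G ⊓
        ⁅Subgroup.normalizer ((tJ (indFam 𝓦 G) (S : Subgroup G) ⊓ Cfsg.pCore p G :
          Subgroup G) : Set G),
        Subgroup.normalizer ((tJ (indFam 𝓦 G) (S : Subgroup G) ⊓ Cfsg.pCore p G :
          Subgroup G) : Set G)⁆ ≤ Cfsg.pCore p G ⊓ tJ (indFam 𝓦 G) (S : Subgroup G)) ∧
    ∀ u : G, u ∈ (S : Subgroup G) → u ∉ Cfsg.pCore p G →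
      ∃ U V : Subgroup G, Cfsg.IsChiefFactor U V ∧ U ≤ Cfsg.pCore p G ∧
        ¬ Cfsg.iterCommutator U (Subgroup.zpowers u) (p - 1) ≤ V := by
  have hcen : Subgroup.centralizer ((Cfsg.pCore p G : Subgroup G) : Set G) ≤ Cfsg.pCore p G := by
    by_contra hcen
    exact hfailS (transfer_step h𝓦 hsub hq1 hq2 (fun h => absurd h hcen) S)
  have hfail : ¬ (Cfsg.pCore p G ⊓ ⁅(⊤ : Subgroup G), (⊤ : Subgroup G)⁆ ≤
      tJ (indFam 𝓦 G) (S : Subgroup G)) :=
    fun h => hfailS (tCtl_at_of_pCore h𝓦 hsub hq2 hcen S h)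
  have hQp : IsPGroup p (Cfsg.pCore p G) := Cfsg.Agent.Helper9.pCore_isPGroup p
  have hQn : (Cfsg.pCore p G).Normal := inferInstance
  have hQS : Cfsg.pCore p G ≤ (S : Subgroup G) := hQp.le_sylow_of_normal S
  have hNW : ∀ W ∈ 𝓦, Subgroup.normalizer
      ((Cfsg.inducedFunctor W (S : Subgroup G) : Subgroup G) : Set G) ≠ ⊤ := by
    intro W hW htop
    apply hfail
    intro x hx
    have h1 : x ∈ (S : Subgroup G) ⊓
        ⁅Subgroup.normalizer ((Cfsg.inducedFunctor W (S : Subgroup G) : Subgroup G) : Set G),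
          Subgroup.normalizer ((Cfsg.inducedFunctor W (S : Subgroup G) : Subgroup G) : Set G)⁆ := by
      rw [htop]
      exact Subgroup.mem_inf.2 ⟨hQS (Subgroup.mem_inf.1 hx).1, (Subgroup.mem_inf.1 hx).2⟩
    exact (le_iSup₂ (f := fun W' (_ : W' ∈ indFam 𝓦 G) => (S : Subgroup G) ⊓
      ⁅Subgroup.normalizer ((W' (S : Subgroup G) : Subgroup G) : Set G),
        Subgroup.normalizer ((W' (S : Subgroup G) : Subgroup G) : Set G)⁆)
      (Cfsg.inducedFunctor W) ⟨W, hW, rfl⟩) h1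
  obtain ⟨W₀, hW₀⟩ := hne
  have hSNW : (S : Subgroup G) ≤ Subgroup.normalizer
      ((Cfsg.inducedFunctor W₀ (S : Subgroup G) : Subgroup G) : Set G) :=
    Subgroup.le_normalizer.trans
      (cf_normalizer_le (isConjugacyFunctor_induced (G := G) (h𝓦 W₀ hW₀)) S.2)
  have hNS : Subgroup.normalizer ((S : Subgroup G) : Set G) ≠ ⊤ := by
    intro htop
    apply hNW W₀ hW₀
    have := cf_normalizer_le (isConjugacyFunctor_induced (G := G) (h𝓦 W₀ hW₀)) S.2
    rw [htop] at this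
    exact top_le_iff.mp this
  have hcomm : ∀ H : Subgroup G, (S : Subgroup G) ≤ H → H ≠ ⊤ → ∀ h ∈ H,
      ∀ d ∈ Cfsg.pCore p G, ⁅h, d⁆ ∈ tJ (indFam 𝓦 G) (S : Subgroup G) ⊓ Cfsg.pCore p G := by
    intro H hSH hH h hh d hd
    have hdn : h * d * h⁻¹ ∈ Cfsg.pCore p G := hQn.conj_mem d hd h
    have h1 : ⁅h, d⁆ ∈ Cfsg.pCore p G := by
      rw [commutatorElement_def]; exact mul_mem hdn (inv_mem hd)
    have h2 : ⁅h, d⁆ ∈ ⁅H, H⁆ := Subgroup.commutator_mem_commutator hh (hSH (hQS hd))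
    exact Subgroup.mem_inf.2
      ⟨tCtl_subgroup h𝓦 H (hsub H hH) S hSH (Subgroup.mem_inf.2 ⟨hQS h1, h2⟩), h1⟩
  have hHM : ∀ H : Subgroup G, (S : Subgroup G) ≤ H → H ≠ ⊤ →
      H ≤ Subgroup.normalizer ((tJ (indFam 𝓦 G) (S : Subgroup G) ⊓ Cfsg.pCore p G :
        Subgroup G) : Set G) := by
    intro H hSH hH h hh
    apply mem_normalizer_of_conj_mem
    intro d hd
    have h1 := hcomm H hSH hH h hh d (Subgroup.mem_inf.1 hd).2
    have e : h * d * h⁻¹ = ⁅h, d⁆ * d := by rw [commutatorElement_def]; group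
    rw [e]; exact mul_mem h1 hd
  have hSM : (S : Subgroup G) ≤ Subgroup.normalizer
      ((tJ (indFam 𝓦 G) (S : Subgroup G) ⊓ Cfsg.pCore p G : Subgroup G) : Set G) :=
    Subgroup.le_normalizer.trans (hHM _ Subgroup.le_normalizer hNS)
  have hMne : Subgroup.normalizer ((tJ (indFam 𝓦 G) (S : Subgroup G) ⊓ Cfsg.pCore p G :
      Subgroup G) : Set G) ≠ ⊤ := by
    intro htop
    have hDn : (tJ (indFam 𝓦 G) (S : Subgroup G) ⊓ Cfsg.pCore p G).Normal :=
      Subgroup.normalizer_eq_top_iff.mp htop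
    have hπs : Function.Surjective
        (QuotientGroup.mk' (tJ (indFam 𝓦 G) (S : Subgroup G) ⊓ Cfsg.pCore p G)) :=
      QuotientGroup.mk'_surjective _
    have hQ'n : ((Cfsg.pCore p G).map
        (QuotientGroup.mk' (tJ (indFam 𝓦 G) (S : Subgroup G) ⊓ Cfsg.pCore p G))).Normal :=
      hQn.map _ hπs
    have hCn : ((Subgroup.centralizer (((Cfsg.pCore p G).map
        (QuotientGroup.mk' (tJ (indFam 𝓦 G) (S : Subgroup G) ⊓ Cfsg.pCore p G)) :
          Subgroup (G ⧸ (tJ (indFam 𝓦 G) (S : Subgroup G) ⊓ Cfsg.pCore p G))) :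
            Set (G ⧸ (tJ (indFam 𝓦 G) (S : Subgroup G) ⊓ Cfsg.pCore p G)))).comap
        (QuotientGroup.mk' (tJ (indFam 𝓦 G) (S : Subgroup G) ⊓ Cfsg.pCore p G))).Normal :=
      Subgroup.Normal.comap inferInstance _
    have hHC : ∀ H : Subgroup G, (S : Subgroup G) ≤ H → H ≠ ⊤ →
        H ≤ (Subgroup.centralizer (((Cfsg.pCore p G).map
        (QuotientGroup.mk' (tJ (indFam 𝓦 G) (S : Subgroup G) ⊓ Cfsg.pCore p G)) :
          Subgroup (G ⧸ (tJ (indFam 𝓦 G) (S : Subgroup G) ⊓ Cfsg.pCore p G))) :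
            Set (G ⧸ (tJ (indFam 𝓦 G) (S : Subgroup G) ⊓ Cfsg.pCore p G)))).comap
        (QuotientGroup.mk' (tJ (indFam 𝓦 G) (S : Subgroup G) ⊓ Cfsg.pCore p G)) := by
      intro H hSH hH h hh
      rw [Subgroup.mem_comap, Subgroup.mem_centralizer_iff]
      rintro _ ⟨d, hd, rfl⟩
      have h1 := hcomm H hSH hH h hh d hd
      have h2 : QuotientGroup.mk' (tJ (indFam 𝓦 G) (S : Subgroup G) ⊓ Cfsg.pCore p G) ⁅h, d⁆ = 1 :=
        (QuotientGroup.eq_one_iff _).mpr h1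
      rw [commutatorElement_def] at h2
      simp only [map_mul, map_inv] at h2
      have h3 := mul_inv_eq_one.mp h2
      rw [mul_inv_eq_iff_eq_mul] at h3
      exact h3.symm
    by_cases hC : (Subgroup.centralizer (((Cfsg.pCore p G).map
        (QuotientGroup.mk' (tJ (indFam 𝓦 G) (S : Subgroup G) ⊓ Cfsg.pCore p G)) :
          Subgroup (G ⧸ (tJ (indFam 𝓦 G) (S : Subgroup G) ⊓ Cfsg.pCore p G))) :
            Set (G ⧸ (tJ (indFam 𝓦 G) (S : Subgroup G) ⊓ Cfsg.pCore p G)))).comap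
        (QuotientGroup.mk' (tJ (indFam 𝓦 G) (S : Subgroup G) ⊓ Cfsg.pCore p G)) = ⊤
    · apply hfail
      have hQG : ∀ u ∈ Cfsg.pCore p G, ∀ t : G, u⁻¹ * (t⁻¹ * u * t) ∈
          tJ (indFam 𝓦 G) (S : Subgroup G) ⊓ Cfsg.pCore p G := by
        intro u hu t
        have ht : t ∈ (Subgroup.centralizer (((Cfsg.pCore p G).map
            (QuotientGroup.mk' (tJ (indFam 𝓦 G) (S : Subgroup G) ⊓ Cfsg.pCore p G)) :
          Subgroup (G ⧸ (tJ (indFam 𝓦 G) (S : Subgroup G) ⊓ Cfsg.pCore p G))) :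
            Set (G ⧸ (tJ (indFam 𝓦 G) (S : Subgroup G) ⊓ Cfsg.pCore p G)))).comap
            (QuotientGroup.mk' (tJ (indFam 𝓦 G) (S : Subgroup G) ⊓ Cfsg.pCore p G)) := by
          rw [hC]; exact Subgroup.mem_top t
        rw [Subgroup.mem_comap, Subgroup.mem_centralizer_iff] at ht
        have h1 := ht _ (Subgroup.mem_map_of_mem _ hu)
        rw [← QuotientGroup.eq_one_iff]
        show QuotientGroup.mk' (tJ (indFam 𝓦 G) (S : Subgroup G) ⊓ Cfsg.pCore p G)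
          (u⁻¹ * (t⁻¹ * u * t)) = 1
        simp only [map_mul, map_inv]
        rw [mul_assoc, h1, inv_mul_cancel_left, inv_mul_cancel]
      have hidx : ¬ p ∣ (Subgroup.normalizer
          ((Cfsg.inducedFunctor W₀ (S : Subgroup G) : Subgroup G) : Set G)).index :=
        fun h => S.not_dvd_index (h.trans (Subgroup.index_dvd_of_le hSNW))
      have h3 := inf_commutator_le_of_central
        (Subgroup.normalizer ((Cfsg.inducedFunctor W₀ (S : Subgroup G) : Subgroup G) : Set G))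
        (Cfsg.pCore p G) (tJ (indFam 𝓦 G) (S : Subgroup G) ⊓ Cfsg.pCore p G)
        (hQS.trans hSNW) hQp hidx hQG (by
          intro x hx
          refine Subgroup.mem_inf.2 ⟨?_, (Subgroup.mem_inf.1 hx).1⟩
          exact (le_iSup₂ (f := fun W' (_ : W' ∈ indFam 𝓦 G) => (S : Subgroup G) ⊓
            ⁅Subgroup.normalizer ((W' (S : Subgroup G) : Subgroup G) : Set G),
              Subgroup.normalizer ((W' (S : Subgroup G) : Subgroup G) : Set G)⁆)
            (Cfsg.inducedFunctor W₀) ⟨W₀, hW₀, rfl⟩)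
            (Subgroup.mem_inf.2 ⟨hQS (Subgroup.mem_inf.1 hx).1, (Subgroup.mem_inf.1 hx).2⟩))
      intro x hx
      exact (Subgroup.mem_inf.1 (h3 x (Subgroup.mem_inf.1 hx).1
        (by rw [commutator_def]; exact (Subgroup.mem_inf.1 hx).2))).1
    · have hNC := hHC _ Subgroup.le_normalizer hNS
      have hSC := Subgroup.le_normalizer.trans hNC
      have hfr := Sylow.normalizer_sup_eq_top' S hSC
      have hfr' : Subgroup.normalizer ((S : Subgroup G) : Set G) ⊔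
          (Subgroup.centralizer (((Cfsg.pCore p G).map
        (QuotientGroup.mk' (tJ (indFam 𝓦 G) (S : Subgroup G) ⊓ Cfsg.pCore p G)) :
          Subgroup (G ⧸ (tJ (indFam 𝓦 G) (S : Subgroup G) ⊓ Cfsg.pCore p G))) :
            Set (G ⧸ (tJ (indFam 𝓦 G) (S : Subgroup G) ⊓ Cfsg.pCore p G)))).comap
        (QuotientGroup.mk' (tJ (indFam 𝓦 G) (S : Subgroup G) ⊓ Cfsg.pCore p G)) = ⊤ := hfr
      rw [sup_of_le_right hNC] at hfr'
      exact hC hfr'
  refine ⟨hcen, ⟨hMne, hHM⟩, ⟨?_, ?_⟩, ?_⟩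
  · refine le_inf (Subgroup.commutator_le_left _ _) ?_
    exact Subgroup.commutator_mono (hQS.trans hSM) le_rfl
  · intro x hx
    refine Subgroup.mem_inf.2 ⟨(Subgroup.mem_inf.1 hx).1, ?_⟩
    exact tCtl_subgroup h𝓦 _ (hsub _ hMne) S hSM
      (Subgroup.mem_inf.2 ⟨hQS (Subgroup.mem_inf.1 hx).1, (Subgroup.mem_inf.1 hx).2⟩)
  · intro u huS huQ
    by_contra hcon
    push Not at hcon
    apply hfail
    exact pCore_inf_commutator_le_of_engel h𝓦 hsub S huS huQ hcon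

end MF

end Cfsg.Agent.Helper12
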