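import Mathlib
import Cfsg.Prelude.Def_CaseTheorems
import Cfsg.Agent.Helper16.PReducedSub
import Cfsg.Agent.Helper24.PNormalCenter
import Cfsg.Agent.Helper11.ZGroup

/-!
A normal four-subgroup `U` of a Sylow `2`-subgroup `P` of a group all of whose `2`-locals have
characteristic `2` lies in `O_2(C(u))` for each of its involutions `u`, provided `U` is central
in `P` when `Z(P)` is not cyclic.
-/

set_option autoImplicit false

namespace Cfsg.Agent.Helper12

open Subgroup Cfsg.Agent.Helper16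

section NFour

variable {G : Type*} [Group G]

/-- the powers of an element of square one -/
theorem zp_cases {u : G} (hu2 : u * u = 1) {c : G} (hc : c ∈ Subgroup.zpowers u) :
    c = 1 ∨ c = u := by
  obtain ⟨k, rfl⟩ := Subgroup.mem_zpowers_iff.mp hc
  have h2 : u ^ (2 : ℤ) = 1 := by rw [zpow_two]; exact hu2
  have hk : k = k % 2 + 2 * (k / 2) := by omega
  rcases Int.emod_two_eq_zero_or_one k with h | h
  · left
    rw [hk, zpow_add, zpow_mul, h2, one_zpow, mul_one, h, zpow_zero]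
  · right
    rw [hk, zpow_add, zpow_mul, h2, one_zpow, mul_one, h, zpow_one]

/-- the stability group of `O_2(M) ≥ Z ≥ 1`, `Z` central of exponent two, lies in `O_2(M)` when
`O_2(M)` contains its centralizer in `M` -/
theorem stab_le_pCoreOf [Finite G] (M Z : Subgroup G) (hZ2 : ∀ c ∈ Z, c * c = 1)
    (hZM : ∀ c ∈ Z, ∀ g ∈ M, g * c = c * g)
    (hcent : ∀ x ∈ M, (∀ q ∈ Cfsg.pCoreOf 2 M, x * q = q * x) → x ∈ Cfsg.pCoreOf 2 M)
    (x : G) (hxM : x ∈ M)
    (hst : ∀ q ∈ Cfsg.pCoreOf 2 M, x * q * x⁻¹ * q⁻¹ ∈ Z) : x ∈ Cfsg.pCoreOf 2 M := by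
  have hQn : ∀ g ∈ M, ∀ q ∈ Cfsg.pCoreOf 2 M, g * q * g⁻¹ ∈ Cfsg.pCoreOf 2 M := fun g hg q hq =>
    (Subgroup.mem_normalizer_iff.mp (le_normalizer_pCoreOf 2 M hg) q).mp hq
  let N : Subgroup G :=
    { carrier := {y | y ∈ M ∧ ∀ q ∈ Cfsg.pCoreOf 2 M, y * q * y⁻¹ * q⁻¹ ∈ Z}
      one_mem' := ⟨M.one_mem, fun q _ => by simp⟩
      mul_mem' := by
        intro a b ha hb
        refine ⟨M.mul_mem ha.1 hb.1, fun q hq => ?_⟩
        have h1 := hb.2 q hq
        have h2 := ha.2 q hq
        have h3 := hZM _ h1 a ha.1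
        have e : a * b * q * (a * b)⁻¹ * q⁻¹ =
            (a * (b * q * b⁻¹ * q⁻¹)) * a⁻¹ * (a * q * a⁻¹ * q⁻¹) := by group
        rw [e, h3]
        have e2 : (b * q * b⁻¹ * q⁻¹) * a * a⁻¹ * (a * q * a⁻¹ * q⁻¹) =
            (b * q * b⁻¹ * q⁻¹) * (a * q * a⁻¹ * q⁻¹) := by group
        rw [e2]
        exact Z.mul_mem h1 h2
      inv_mem' := by
        intro a ha
        refine ⟨M.inv_mem ha.1, fun q hq => ?_⟩
        have hq' : a⁻¹ * q * a ∈ Cfsg.pCoreOf 2 M := by
          simpa using hQn a⁻¹ (M.inv_mem ha.1) q hq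
        have h1 := ha.2 _ hq'
        have e : a⁻¹ * q * a⁻¹⁻¹ * q⁻¹ =
            (a * (a⁻¹ * q * a) * a⁻¹ * (a⁻¹ * q * a)⁻¹)⁻¹ := by group
        rw [e]
        exact Z.inv_mem h1 }
  have hNM : N ≤ M := fun y hy => hy.1
  have hMN : M ≤ Subgroup.normalizer (N : Set G) := by
    apply le_normalizer_of_conj_mem
    intro g hg y hy
    refine ⟨M.mul_mem (M.mul_mem hg hy.1) (M.inv_mem hg), fun q hq => ?_⟩
    have hq' : g⁻¹ * q * g ∈ Cfsg.pCoreOf 2 M := by
      simpa using hQn g⁻¹ (M.inv_mem hg) q hq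
    have h1 := hy.2 _ hq'
    have h3 := hZM _ h1 g hg
    have e : g * y * g⁻¹ * q * (g * y * g⁻¹)⁻¹ * q⁻¹ =
        g * (y * (g⁻¹ * q * g) * y⁻¹ * (g⁻¹ * q * g)⁻¹) * g⁻¹ := by group
    rw [e, h3, mul_inv_cancel_right]
    exact h1
  have hNp : IsPGroup 2 ↥N := by
    rintro ⟨y, hy⟩
    have hyy : y * y ∈ Cfsg.pCoreOf 2 M := by
      apply hcent (y * y) (M.mul_mem hy.1 hy.1)
      intro q hq
      obtain ⟨c, hc⟩ : ∃ c, c = y * q * y⁻¹ * q⁻¹ := ⟨_, rfl⟩
      have hcZ : c ∈ Z := by rw [hc]; exact hy.2 q hq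
      have hc2 := hZ2 c hcZ
      have hcy := hZM c hcZ y hy.1
      have hyq : y * q = c * q * y := by rw [hc]; group
      calc y * y * q = y * (y * q) := by group
        _ = y * (c * q * y) := by rw [hyq]
        _ = (y * c) * q * y := by group
        _ = (c * y) * q * y := by rw [hcy]
        _ = c * (y * q) * y := by group
        _ = c * (c * q * y) * y := by rw [hyq]
        _ = (c * c) * q * (y * y) := by group
        _ = q * (y * y) := by rw [hc2, one_mul]
    obtain ⟨k, hk⟩ := (isPGroup_pCoreOf 2 M) ⟨y * y, hyy⟩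
    have hk' : (y * y) ^ 2 ^ k = 1 := congrArg Subtype.val hk
    refine ⟨k + 1, Subtype.ext ?_⟩
    rw [Subgroup.coe_pow]
    show y ^ 2 ^ (k + 1) = 1
    rw [pow_succ' 2 k, pow_mul, pow_two]
    exact hk'
  exact le_pCoreOf hNM hMN hNp ⟨hxM, hst⟩

/-- the `2`-local `N(⟨u⟩)` -/
abbrev nfLoc (u : G) : Subgroup G :=
  Subgroup.normalizer ((Subgroup.zpowers u : Subgroup G) : Set G)

/-- facts on the `2`-local `N(⟨u⟩) = C(u)` of an involution `u` -/
theorem local_facts [Finite G]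
    (hch : ∀ T : Subgroup G, IsPGroup 2 T → T ≠ ⊥ →
      Cfsg.IsOfCharacteristicTwo ↥(Subgroup.normalizer (T : Set G)))
    (u : G) (hu1 : u ≠ 1) (hu2 : u * u = 1) :
    (∀ g, g ∈ nfLoc u ↔ g * u = u * g) ∧
    (∀ x ∈ nfLoc u, (∀ q ∈ Cfsg.pCoreOf 2 (nfLoc u), x * q = q * x) →
        x ∈ Cfsg.pCoreOf 2 (nfLoc u)) ∧
    (∀ x ∈ nfLoc u, (∀ q ∈ Cfsg.pCoreOf 2 (nfLoc u),
        x * q * x⁻¹ * q⁻¹ = 1 ∨ x * q * x⁻¹ * q⁻¹ = u) → x ∈ Cfsg.pCoreOf 2 (nfLoc u)) := by
  have hmem : ∀ g, g ∈ nfLoc u ↔ g * u = u * g := by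
    intro g
    constructor
    · intro hg
      have h1 := (Subgroup.mem_normalizer_iff.mp hg u).mp (Subgroup.mem_zpowers u)
      rcases zp_cases hu2 h1 with h | h
      · exfalso
        apply hu1
        have e : u = g⁻¹ * (g * u * g⁻¹) * g := by group
        rw [e, h]
        group
      · calc g * u = (g * u * g⁻¹) * g := by group
          _ = u * g := by rw [h]
    · intro hg
      apply Subgroup.centralizer_le_normalizer
      have h1 : Subgroup.zpowers u ≤ Subgroup.centralizer ({g} : Set G) := by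
        rw [Subgroup.zpowers_le, Subgroup.mem_centralizer_iff]
        intro a ha
        rw [Set.mem_singleton_iff] at ha
        rw [ha]
        exact hg
      rw [Subgroup.mem_centralizer_iff]
      intro h hh
      exact (Subgroup.mem_centralizer_iff.mp (h1 hh) g (Set.mem_singleton g)).symm
  have hT : IsPGroup 2 ↥(Subgroup.zpowers u) := by
    rintro ⟨c, hc⟩
    refine ⟨1, Subtype.ext ?_⟩
    rw [Subgroup.coe_pow]
    show c ^ 2 ^ 1 = 1
    rw [pow_one, pow_two]
    rcases zp_cases hu2 hc with h | h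
    · rw [h, one_mul]
    · rw [h]; exact hu2
  have hTne : Subgroup.zpowers u ≠ ⊥ := Subgroup.zpowers_ne_bot.mpr hu1
  have hM : Subgroup.centralizer (Cfsg.pCore 2 ↥(nfLoc u) : Set ↥(nfLoc u)) ≤
      Cfsg.pCore 2 ↥(nfLoc u) := hch _ hT hTne
  have hcent : ∀ x ∈ nfLoc u, (∀ q ∈ Cfsg.pCoreOf 2 (nfLoc u), x * q = q * x) →
      x ∈ Cfsg.pCoreOf 2 (nfLoc u) := by
    intro x hxM hx
    have hx' : (⟨x, hxM⟩ : ↥(nfLoc u)) ∈
        Subgroup.centralizer (Cfsg.pCore 2 ↥(nfLoc u) : Set ↥(nfLoc u)) := by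
      rw [Subgroup.mem_centralizer_iff]
      intro y hy
      apply Subtype.ext
      exact (hx (y : G) (Subgroup.mem_map_of_mem _ hy)).symm
    exact ⟨_, hM hx', rfl⟩
  refine ⟨hmem, hcent, ?_⟩
  intro x hxM hst
  refine stab_le_pCoreOf (nfLoc u) (Subgroup.zpowers u) ?_ ?_ hcent x hxM ?_
  · intro c hc
    rcases zp_cases hu2 hc with h | h
    · rw [h, one_mul]
    · rw [h]; exact hu2
  · intro c hc g hg
    rcases zp_cases hu2 hc with h | h
    · rw [h, mul_one, one_mul]
    · rw [h]; exact (hmem g).mp hg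
  · intro q hq
    rcases hst q hq with h | h
    · rw [h]; exact Subgroup.one_mem _
    · rw [h]; exact Subgroup.mem_zpowers u

/-- elementwise facts on a four-group -/
theorem klein_facts (U : Subgroup G) (hU4 : IsKleinFour ↥U) :
    (∀ a ∈ U, a * a = 1) ∧ (∀ a ∈ U, ∀ b ∈ U, a * b = b * a) ∧
    (∀ x ∈ U, ∀ y ∈ U, x ≠ 1 → y ≠ 1 → x ≠ y → ∀ w ∈ U,
      w = 1 ∨ w = x ∨ w = y ∨ w = x * y) := by
  have := hU4
  have hsq : ∀ a ∈ U, a * a = 1 := fun a ha =>
    congrArg Subtype.val (IsKleinFour.mul_self (⟨a, ha⟩ : ↥U))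
  refine ⟨hsq, ?_, ?_⟩
  · intro a ha b hb
    have h1 := hsq (a * b) (U.mul_mem ha hb)
    calc a * b = (a * b)⁻¹ := (inv_eq_of_mul_eq_one_right h1).symm
      _ = b⁻¹ * a⁻¹ := mul_inv_rev a b
      _ = b * a := by
        rw [inv_eq_of_mul_eq_one_right (hsq b hb), inv_eq_of_mul_eq_one_right (hsq a ha)]
  · intro x hx y hy hx1 hy1 hxy w hw
    by_contra hcon
    push Not at hcon
    obtain ⟨hw1, hwx, hwy, hwxy⟩ := hcon
    have h := IsKleinFour.eq_mul_of_ne_all (G := ↥U) (x := ⟨x, hx⟩) (y := ⟨y, hy⟩)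
      (z := ⟨w, hw⟩)
      (fun h => hx1 (congrArg Subtype.val h)) (fun h => hy1 (congrArg Subtype.val h))
      (fun h => hxy (congrArg Subtype.val h)) (fun h => hw1 (congrArg Subtype.val h))
      (fun h => hwx (congrArg Subtype.val h)) (fun h => hwy (congrArg Subtype.val h))
    exact hwxy (congrArg Subtype.val h)

/-- a central four-subgroup of a Sylow `2`-subgroup lies in `O_2(C(u))` -/
theorem four_le_pCoreOf_central [Finite G]
    (hch : ∀ T : Subgroup G, IsPGroup 2 T → T ≠ ⊥ →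
      Cfsg.IsOfCharacteristicTwo ↥(Subgroup.normalizer (T : Set G)))
    (P : Sylow 2 G) (U : Subgroup G) (hUP : U ≤ (P : Subgroup G))
    (hsq : ∀ a ∈ U, a * a = 1)
    (hUZ : U ≤ Subgroup.centralizer ((P : Subgroup G) : Set G))
    (u : G) (hu : u ∈ U) (hu1 : u ≠ 1) : U ≤ Cfsg.pCoreOf 2 (nfLoc u) := by
  obtain ⟨hmem, hcent, -⟩ := local_facts hch u hu1 (hsq u hu)
  have hcomm : ∀ w ∈ U, ∀ g ∈ (P : Subgroup G), g * w = w * g := fun w hw g hg =>
    Subgroup.mem_centralizer_iff.mp (hUZ hw) g hg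
  have hPM : (P : Subgroup G) ≤ nfLoc u := fun g hg => (hmem g).mpr (hcomm u hu g hg)
  have hQP : Cfsg.pCoreOf 2 (nfLoc u) ≤ P := pCoreOf_le_sylow P hPM
  intro w hw
  apply hcent w (hPM (hUP hw))
  intro q hq
  exact (hcomm w hw q (hQP hq)).symm

/-- a normal four-subgroup of a Sylow `2`-subgroup with cyclic centre lies in `O_2(C(u))` -/
theorem four_le_pCoreOf_cyclic [Finite G]
    (hch : ∀ T : Subgroup G, IsPGroup 2 T → T ≠ ⊥ →
      Cfsg.IsOfCharacteristicTwo ↥(Subgroup.normalizer (T : Set G)))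
    (P : Sylow 2 G) (U : Subgroup G) (hUP : U ≤ (P : Subgroup G))
    (hUn : (P : Subgroup G) ≤ Subgroup.normalizer (U : Set G))
    (hU4 : IsKleinFour ↥U)
    (hcyc : IsCyclic ↥((P : Subgroup G) ⊓ Subgroup.centralizer ((P : Subgroup G) : Set G)))
    (hnc : ¬ U ≤ Subgroup.centralizer ((P : Subgroup G) : Set G))
    (u : G) (hu : u ∈ U) (hu1 : u ≠ 1) : U ≤ Cfsg.pCoreOf 2 (nfLoc u) := by
  obtain ⟨hsq, hUc, hen⟩ := klein_facts U hU4
  have hconj : ∀ g ∈ (P : Subgroup G), ∀ w ∈ U, g * w * g⁻¹ ∈ U := fun g hg w hw =>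
    (Subgroup.mem_normalizer_iff.mp (hUn hg) w).mp hw
  -- a central involution of `P` in `U`
  obtain ⟨z, hzU, hzP, hz1⟩ : ∃ z ∈ U, (∀ g ∈ (P : Subgroup G), g * z = z * g) ∧ z ≠ 1 := by
    have hnU : (U.subgroupOf (P : Subgroup G)).Normal :=
      Subgroup.normal_subgroupOf_of_le_normalizer hUn
    have hne : U.subgroupOf (P : Subgroup G) ≠ ⊥ := by
      intro h
      have h1 : (⟨u, hUP hu⟩ : ↥(P : Subgroup G)) ∈ U.subgroupOf (P : Subgroup G) :=
        Subgroup.mem_subgroupOf.mpr hu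
      rw [h, Subgroup.mem_bot] at h1
      exact hu1 (congrArg Subtype.val h1)
    obtain ⟨z', hz'N, hz'c, hz'1⟩ := Cfsg.Agent.Helper24.pgroup_normal_inf_center (p := 2)
      P.isPGroup' (U.subgroupOf (P : Subgroup G)) hne
    refine ⟨(z' : G), Subgroup.mem_subgroupOf.mp hz'N, ?_, fun h => hz'1 (Subtype.ext h)⟩
    intro g hg
    exact congrArg Subtype.val (Subgroup.mem_center_iff.mp hz'c ⟨g, hg⟩)
  have hz2 := hsq z hzU
  have hzinv : z⁻¹ = z := inv_eq_of_mul_eq_one_right hz2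
  have hzc : z ∈ Subgroup.centralizer ((P : Subgroup G) : Set G) :=
    Subgroup.mem_centralizer_iff.mpr (fun h hh => hzP h hh)
  obtain ⟨u₀, hu₀U, hu₀c⟩ := SetLike.not_le_iff_exists.mp hnc
  have hu₀1 : u₀ ≠ 1 := by
    rintro rfl
    exact hu₀c (Subgroup.one_mem _)
  have hu₀z : u₀ ≠ z := by
    rintro rfl
    exact hu₀c hzc
  have hgu₀ : ∀ g ∈ (P : Subgroup G), g * u₀ * g⁻¹ = u₀ ∨ g * u₀ * g⁻¹ = z * u₀ := by
    intro g hg
    rcases hen z hzU u₀ hu₀U hz1 hu₀1 (Ne.symm hu₀z) _ (hconj g hg u₀ hu₀U) with h | h | h | h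
    · exfalso
      apply hu₀1
      have e : u₀ = g⁻¹ * (g * u₀ * g⁻¹) * g := by group
      rw [e, h]
      group
    · exfalso
      apply hu₀z
      have e : u₀ = g⁻¹ * (g * u₀ * g⁻¹) * g := by group
      rw [e, h, mul_assoc, ← hzP g hg, ← mul_assoc, inv_mul_cancel, one_mul]
    · left; exact h
    · right; exact h
  have hii : ∀ g ∈ (P : Subgroup G), ∀ w ∈ U,
      g * w * g⁻¹ * w⁻¹ = 1 ∨ g * w * g⁻¹ * w⁻¹ = z := by
    intro g hg w hw
    rcases hen z hzU u₀ hu₀U hz1 hu₀1 (Ne.symm hu₀z) w hw with h | h | h | h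
    · left; rw [h]; group
    · left; rw [h, hzP g hg]; group
    · rcases hgu₀ g hg with h' | h'
      · left; rw [h, h']; group
      · right; rw [h, h']; group
    · have e : g * (z * u₀) * g⁻¹ * (z * u₀)⁻¹ =
          (g * z) * g⁻¹ * (g * u₀ * g⁻¹) * u₀⁻¹ * z⁻¹ := by group
      rcases hgu₀ g hg with h' | h'
      · left; rw [h, e, h', hzP g hg]; group
      · right; rw [h, e, h', hzP g hg]; group
  -- the case of the central involution
  have hQz : U ≤ Cfsg.pCoreOf 2 (nfLoc z) := by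
    obtain ⟨hmem, -, hstab⟩ := local_facts hch z hz1 hz2
    have hPM : (P : Subgroup G) ≤ nfLoc z := fun g hg => (hmem g).mpr (hzP g hg)
    have hQP := pCoreOf_le_sylow P hPM
    intro w hw
    apply hstab w (hPM (hUP hw))
    intro q hq
    have e : w * q * w⁻¹ * q⁻¹ = (q * w * q⁻¹ * w⁻¹)⁻¹ := by group
    rcases hii q (hQP hq) w hw with h | h
    · left; rw [e, h, inv_one]
    · right; rw [e, h, hzinv]
  by_cases huz : u = z
  · rw [huz]; exact hQz
  -- now `u` is not central in `P`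
  have hunc : u ∉ Subgroup.centralizer ((P : Subgroup G) : Set G) := by
    intro huc
    apply hnc
    intro w hw
    rcases hen z hzU u hu hz1 hu1 (Ne.symm huz) w hw with h | h | h | h
    · rw [h]; exact Subgroup.one_mem _
    · rw [h]; exact hzc
    · rw [h]; exact huc
    · rw [h]; exact Subgroup.mul_mem _ hzc huc
  obtain ⟨t, htP, htu⟩ : ∃ t ∈ (P : Subgroup G), t * u ≠ u * t := by
    by_contra hcon
    push Not at hcon
    exact hunc (Subgroup.mem_centralizer_iff.mpr hcon)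
  have hgu : ∀ g ∈ (P : Subgroup G), g * u * g⁻¹ = u ∨ g * u * g⁻¹ = z * u := by
    intro g hg
    have e : g * u * g⁻¹ = (g * u * g⁻¹ * u⁻¹) * u := by group
    rcases hii g hg u hu with h | h
    · left; rw [e, h, one_mul]
    · right; rw [e, h]
  have htu' : t * u * t⁻¹ = z * u := by
    rcases hgu t htP with h | h
    · exfalso
      apply htu
      calc t * u = (t * u * t⁻¹) * t := by group
        _ = u * t := by rw [h]
    · exact h
  obtain ⟨hmem, hcent, hstab⟩ := local_facts hch u hu1 (hsq u hu)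
  obtain ⟨P₀, hP₀⟩ : ∃ P₀ : Subgroup G, P₀ = (P : Subgroup G) ⊓ nfLoc u := ⟨_, rfl⟩
  have hP₀P : P₀ ≤ (P : Subgroup G) := by rw [hP₀]; exact inf_le_left
  have hP₀M : P₀ ≤ nfLoc u := by rw [hP₀]; exact inf_le_right
  have hP₀mem : ∀ g, g ∈ P₀ ↔ g ∈ (P : Subgroup G) ∧ g * u = u * g := by
    intro g
    rw [hP₀, Subgroup.mem_inf, hmem g]
  have hxor : ∀ b ∈ (P : Subgroup G), Xor (b * t ∈ P₀) (b ∈ P₀) := by
    intro b hb
    rcases hgu b hb with h | h
    · have hbu : b * u = u * b := by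
        calc b * u = (b * u * b⁻¹) * b := by group
          _ = u * b := by rw [h]
      refine Or.inr ⟨(hP₀mem b).mpr ⟨hb, hbu⟩, fun hbt => htu ?_⟩
      have h1 := ((hP₀mem _).mp hbt).2
      calc t * u = b⁻¹ * (b * t * u) := by group
        _ = b⁻¹ * (u * (b * t)) := by rw [h1]
        _ = b⁻¹ * (u * b) * t := by group
        _ = b⁻¹ * (b * u) * t := by rw [hbu]
        _ = u * t := by group
    · refine Or.inl ⟨(hP₀mem _).mpr ⟨Subgroup.mul_mem _ hb htP, ?_⟩, fun hb0 => hz1 ?_⟩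
      · have e1 : b * t * u = b * (t * u * t⁻¹) * t := by group
        have e2 : b * (z * u) * t = (b * z) * b⁻¹ * (b * u * b⁻¹) * b * t := by group
        rw [e1, htu', e2, h, hzP b hb]
        calc z * b * b⁻¹ * (z * u) * b * t = (z * z) * u * (b * t) := by group
          _ = u * (b * t) := by rw [hz2, one_mul]
      · have hbu := ((hP₀mem b).mp hb0).2
        have h2 : b * u * b⁻¹ = u := by rw [hbu]; group
        rw [h2] at h
        calc z = (z * u) * u⁻¹ := by group
          _ = 1 := by rw [← h]; group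
  have hidx : (P₀.subgroupOf (P : Subgroup G)).index = 2 :=
    Subgroup.index_eq_two_iff.mpr ⟨⟨t, htP⟩, fun b => hxor (b : G) b.2⟩
  have hnorm : ∀ g ∈ (P : Subgroup G), ∀ h ∈ P₀, g * h * g⁻¹ ∈ P₀ := by
    have hn := Subgroup.normal_of_index_eq_two hidx
    intro g hg h hh
    have h1 := hn.conj_mem ⟨h, hP₀P hh⟩ (Subgroup.mem_subgroupOf.mpr hh) ⟨g, hg⟩
    exact Subgroup.mem_subgroupOf.mp h1
  have htP₀ : t ∉ P₀ := fun h => htu ((hP₀mem t).mp h).2
  have htt : t * t ∈ P₀ := by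
    rcases hxor t htP with h | h
    · exact h.1
    · exact absurd h.1 htP₀
  -- elements of square one in the centre of `P`
  have hd0 : ∀ v ∈ P₀, (∀ h ∈ P₀, v * h = h * v) → t * v = v * t → v * v = 1 →
      v = 1 ∨ v = z := by
    intro v hv hvc hvt hv2
    have hvP : ∀ g ∈ (P : Subgroup G), g * v = v * g := by
      intro g hg
      rcases hxor g hg with h | h
      · have h1 := hvc (g * t) h.1
        calc g * v = g * (v * t) * t⁻¹ := by group
          _ = g * (t * v) * t⁻¹ := by rw [hvt]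
          _ = (g * t * v) * t⁻¹ := by group
          _ = (v * (g * t)) * t⁻¹ := by rw [h1]
          _ = v * g := by group
      · exact (hvc g h.1).symm
    have hvZ : v ∈ (P : Subgroup G) ⊓ Subgroup.centralizer ((P : Subgroup G) : Set G) :=
      ⟨hP₀P hv, Subgroup.mem_centralizer_iff.mpr hvP⟩
    have hzZ : z ∈ (P : Subgroup G) ⊓ Subgroup.centralizer ((P : Subgroup G) : Set G) :=
      ⟨hUP hzU, hzc⟩
    have ho : orderOf (⟨z, hzZ⟩ :
        ↥((P : Subgroup G) ⊓ Subgroup.centralizer ((P : Subgroup G) : Set G))) = 2 := by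
      apply orderOf_eq_prime
      · apply Subtype.ext
        rw [Subgroup.coe_pow]
        show z ^ 2 = 1
        rw [pow_two]; exact hz2
      · intro h; exact hz1 (congrArg Subtype.val h)
    have hx : (⟨v, hvZ⟩ :
        ↥((P : Subgroup G) ⊓ Subgroup.centralizer ((P : Subgroup G) : Set G))) ^ 2 = 1 := by
      apply Subtype.ext
      rw [Subgroup.coe_pow]
      show v ^ 2 = 1
      rw [pow_two]; exact hv2
    have hm := Cfsg.Agent.Helper11.zg_cyc_mem Nat.prime_two _ _ ho hx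
    obtain ⟨k, hk⟩ := Subgroup.mem_zpowers_iff.mp hm
    have hk' : z ^ k = v := by
      have h3 := congrArg Subtype.val hk
      simpa using h3
    exact zp_cases hz2 (Subgroup.mem_zpowers_iff.mpr ⟨k, hk'⟩)
  -- `U` consists of all elements of square one of the centre of `P₀`
  have hd : ∀ v ∈ P₀, (∀ h ∈ P₀, v * h = h * v) → v * v = 1 → v ∈ U := by
    intro v hv hvc hv2
    have hvinv : v⁻¹ = v := inv_eq_of_mul_eq_one_right hv2
    have hnP₀ : ∀ h ∈ P₀, t⁻¹ * h * t ∈ P₀ := fun h hh => by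
      simpa using hnorm t⁻¹ (inv_mem htP) h hh
    obtain ⟨v', hv'⟩ : ∃ v', v' = t * v * t⁻¹ := ⟨_, rfl⟩
    have hv'P₀ : v' ∈ P₀ := by rw [hv']; exact hnorm t htP v hv
    have hv'c : ∀ h ∈ P₀, v' * h = h * v' := by
      intro h hh
      have h1 := hvc _ (hnP₀ h hh)
      rw [hv']
      calc t * v * t⁻¹ * h = t * (v * (t⁻¹ * h * t)) * t⁻¹ := by group
        _ = t * (t⁻¹ * h * t * v) * t⁻¹ := by rw [h1]
        _ = h * (t * v * t⁻¹) := by group
    have hv'2 : v' * v' = 1 := by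
      rw [hv']
      calc t * v * t⁻¹ * (t * v * t⁻¹) = t * (v * v) * t⁻¹ := by group
        _ = 1 := by rw [hv2]; group
    have hvv' : v * v' = v' * v := hvc v' hv'P₀
    have htv' : t * v' * t⁻¹ = v := by
      have h1 := hvc (t * t) htt
      rw [hv']
      calc t * (t * v * t⁻¹) * t⁻¹ = (t * t * v) * (t * t)⁻¹ := by group
        _ = (v * (t * t)) * (t * t)⁻¹ := by rw [h1]
        _ = v := by group
    have hw := hd0 (v * v') (P₀.mul_mem hv hv'P₀)
      (by
        intro h hh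
        calc v * v' * h = v * (v' * h) := by group
          _ = v * (h * v') := by rw [hv'c h hh]
          _ = (v * h) * v' := by group
          _ = (h * v) * v' := by rw [hvc h hh]
          _ = h * (v * v') := by group)
      (by
        calc t * (v * v') = (t * v * t⁻¹) * (t * v' * t⁻¹) * t := by group
          _ = v' * v * t := by rw [← hv', htv']
          _ = v * v' * t := by rw [hvv'])
      (by
        calc v * v' * (v * v') = v * (v' * v) * v' := by group
          _ = v * (v * v') * v' := by rw [hvv']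
          _ = (v * v) * (v' * v') := by group
          _ = 1 := by rw [hv2, hv'2, one_mul])
    rcases hw with hw | hw
    · have h1 : v' = v := by
        have h2 := inv_eq_of_mul_eq_one_right hw
        rw [hvinv] at h2
        exact h2.symm
      have htv : t * v = v * t := by
        calc t * v = (t * v * t⁻¹) * t := by group
          _ = v * t := by rw [← hv', h1]
      rcases hd0 v hv hvc htv hv2 with h | h
      · rw [h]; exact U.one_mem
      · rw [h]; exact hzU
    · have huP₀ : u ∈ P₀ := (hP₀mem u).mpr ⟨hUP hu, rfl⟩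
      have huc : ∀ h ∈ P₀, u * h = h * u := fun h hh => (((hP₀mem h).mp hh).2).symm
      have hvu : v * u = u * v := hvc u huP₀
      have hv'eq : v' = v * z := by
        calc v' = v⁻¹ * (v * v') := by group
          _ = v * z := by rw [hw, hvinv]
      have h3 := hd0 (v * u) (P₀.mul_mem hv huP₀)
        (by
          intro h hh
          calc v * u * h = v * (u * h) := by group
            _ = v * (h * u) := by rw [huc h hh]
            _ = (v * h) * u := by group
            _ = (h * v) * u := by rw [hvc h hh]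
            _ = h * (v * u) := by group)
        (by
          calc t * (v * u) = (t * v * t⁻¹) * (t * u * t⁻¹) * t := by group
            _ = v * z * (z * u) * t := by rw [← hv', hv'eq, htu']
            _ = v * (z * z) * u * t := by group
            _ = v * u * t := by rw [hz2, mul_one])
        (by
          calc v * u * (v * u) = v * (u * v) * u := by group
            _ = v * (v * u) * u := by rw [← hvu]
            _ = (v * v) * (u * u) := by group
            _ = 1 := by rw [hv2, hsq u hu, one_mul])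
      have huinv : u⁻¹ = u := inv_eq_of_mul_eq_one_right (hsq u hu)
      rcases h3 with h | h
      · have h4 : v = u := by
          calc v = (v * u) * u⁻¹ := by group
            _ = u := by rw [h, one_mul, huinv]
        rw [h4]; exact hu
      · have h4 : v = z * u := by
          calc v = (v * u) * u⁻¹ := by group
            _ = z * u := by rw [h, huinv]
        rw [h4]; exact U.mul_mem hzU hu
  -- the `2`-group `O_2(M) P₀`
  obtain ⟨Q, hQdef⟩ : ∃ Q : Subgroup G, Q = Cfsg.pCoreOf 2 (nfLoc u) := ⟨_, rfl⟩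
  rw [← hQdef] at hstab ⊢
  have hQM : Q ≤ nfLoc u := by rw [hQdef]; exact pCoreOf_le 2 _
  have hQp : IsPGroup 2 ↥Q := by rw [hQdef]; exact isPGroup_pCoreOf 2 _
  have hP₀p : IsPGroup 2 ↥P₀ := P.isPGroup'.to_le hP₀P
  have hP₀N : P₀ ≤ Subgroup.normalizer (Q : Set G) := by
    rw [hQdef]; exact hP₀M.trans (le_normalizer_pCoreOf 2 (nfLoc u))
  have hRp : IsPGroup 2 ↥(Q ⊔ P₀) := IsPGroup.to_sup_of_normal_left' hQp hP₀p hP₀N
  obtain ⟨S, hS⟩ := hRp.exists_le_sylow
  have hcardS : Nat.card ↥(S : Subgroup G) = Nat.card ↥(P : Subgroup G) :=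
    (Sylow.card_eq_multiplicity S).trans (Sylow.card_eq_multiplicity P).symm
  have h1 : Nat.card ↥(Q ⊔ P₀) ≤ Nat.card ↥(P : Subgroup G) :=
    (Subgroup.card_le_of_le hS).trans hcardS.le
  have hP₀R : P₀ ≤ Q ⊔ P₀ := le_sup_right
  have e1 := Subgroup.card_mul_index (P₀.subgroupOf (Q ⊔ P₀))
  have e2 : Nat.card ↥(P₀.subgroupOf (Q ⊔ P₀)) = Nat.card ↥P₀ :=
    Nat.card_congr (Subgroup.subgroupOfEquivOfLe hP₀R).toEquiv
  have e3 := Subgroup.card_mul_index (P₀.subgroupOf (P : Subgroup G))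
  have e4 : Nat.card ↥(P₀.subgroupOf (P : Subgroup G)) = Nat.card ↥P₀ :=
    Nat.card_congr (Subgroup.subgroupOfEquivOfLe hP₀P).toEquiv
  rw [e2] at e1
  rw [e4, hidx] at e3
  have hpos : 0 < Nat.card ↥P₀ := Nat.card_pos
  have hidx' : (P₀.subgroupOf (Q ⊔ P₀)).index ≤ 2 := by
    by_contra hc
    push Not at hc
    have h5 : Nat.card ↥P₀ * 3 ≤ Nat.card ↥P₀ * (P₀.subgroupOf (Q ⊔ P₀)).index :=
      Nat.mul_le_mul_left _ hc
    omega
  have hnR : (P₀.subgroupOf (Q ⊔ P₀)).Normal := by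
    have h0 : (P₀.subgroupOf (Q ⊔ P₀)).index ≠ 0 := Subgroup.index_ne_zero_of_finite
    have h6 : (P₀.subgroupOf (Q ⊔ P₀)).index = 1 ∨ (P₀.subgroupOf (Q ⊔ P₀)).index = 2 := by
      omega
    rcases h6 with h | h
    · rw [Subgroup.index_eq_one.mp h]; infer_instance
    · exact Subgroup.normal_of_index_eq_two h
  have hnormR : ∀ r ∈ Q ⊔ P₀, ∀ h ∈ P₀, r * h * r⁻¹ ∈ P₀ := by
    intro r hr h hh
    have h7 := hnR.conj_mem ⟨h, hP₀R hh⟩ (Subgroup.mem_subgroupOf.mpr hh) ⟨r, hr⟩
    exact Subgroup.mem_subgroupOf.mp h7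
  have hUP₀ : ∀ w ∈ U, w ∈ P₀ := fun w hw => (hP₀mem w).mpr ⟨hUP hw, hUc w hw u hu⟩
  have hUcP₀ : ∀ w ∈ U, ∀ h ∈ P₀, w * h = h * w := by
    intro w hw h hh
    have hhu : h * u = u * h := ((hP₀mem h).mp hh).2
    have hhz : h * z = z * h := hzP h (hP₀P hh)
    rcases hen z hzU u hu hz1 hu1 (Ne.symm huz) w hw with e | e | e | e
    · rw [e, one_mul, mul_one]
    · rw [e]; exact hhz.symm
    · rw [e]; exact hhu.symm
    · rw [e]
      calc z * u * h = z * (u * h) := by group
        _ = z * (h * u) := by rw [hhu]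
        _ = (z * h) * u := by group
        _ = (h * z) * u := by rw [hhz]
        _ = h * (z * u) := by group
  have hqU : ∀ q ∈ Q, ∀ w ∈ U, q * w * q⁻¹ ∈ U := by
    intro q hq w hw
    have hqR : q ∈ Q ⊔ P₀ := (le_sup_left : Q ≤ Q ⊔ P₀) hq
    apply hd (q * w * q⁻¹) (hnormR q hqR w (hUP₀ w hw))
    · intro h hh
      have hh' : q⁻¹ * h * q ∈ P₀ := by simpa using hnormR q⁻¹ (inv_mem hqR) h hh
      have h8 := hUcP₀ w hw _ hh'
      calc q * w * q⁻¹ * h = q * (w * (q⁻¹ * h * q)) * q⁻¹ := by group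
        _ = q * (q⁻¹ * h * q * w) * q⁻¹ := by rw [h8]
        _ = h * (q * w * q⁻¹) := by group
    · calc q * w * q⁻¹ * (q * w * q⁻¹) = q * (w * w) * q⁻¹ := by group
        _ = 1 := by rw [hsq w hw]; group
  have hg : ∀ q ∈ Q, ∀ w ∈ U, q * w * q⁻¹ * w⁻¹ = 1 ∨ q * w * q⁻¹ * w⁻¹ = u := by
    intro q hq w hw
    have hqM : q * u = u * q := (hmem q).mp (hQM hq)
    have hqz : q * z * q⁻¹ = z ∨ q * z * q⁻¹ = u * z := by
      rcases hen u hu z hzU hu1 hz1 huz _ (hqU q hq z hzU) with e | e | e | e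
      · exfalso
        apply hz1
        have e' : z = q⁻¹ * (q * z * q⁻¹) * q := by group
        rw [e', e]
        group
      · exfalso
        apply huz
        have e' : z = q⁻¹ * (q * z * q⁻¹) * q := by group
        have h9 : z = u := by
          rw [e', e, mul_assoc, ← hqM, ← mul_assoc, inv_mul_cancel, one_mul]
        exact h9.symm
      · left; exact e
      · right; exact e
    rcases hen u hu z hzU hu1 hz1 huz w hw with e | e | e | e
    · left; rw [e]; group
    · left; rw [e, hqM]; group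
    · rcases hqz with h | h
      · left; rw [e, h]; group
      · right; rw [e, h]; group
    · have e'' : q * (u * z) * q⁻¹ * (u * z)⁻¹ =
          (q * u) * q⁻¹ * (q * z * q⁻¹) * z⁻¹ * u⁻¹ := by group
      rcases hqz with h | h
      · left; rw [e, e'', hqM, h]; group
      · right; rw [e, e'', hqM, h]; group
  intro w hw
  apply hstab w (hP₀M (hUP₀ w hw))
  intro q hq
  have e : w * q * w⁻¹ * q⁻¹ = (q * w * q⁻¹ * w⁻¹)⁻¹ := by group
  rcases hg q hq w hw with h | h
  · left; rw [e, h, inv_one]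
  · right; rw [e, h]; exact inv_eq_of_mul_eq_one_right (hsq u hu)

end NFour

end Cfsg.Agent.Helper12
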