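import Mathlib
import Cfsg.Prelude.Def_Quasithin
import Cfsg.Prelude.Def_QuasithinSetup
import Cfsg.Agent.Helper12.HeChain
import Cfsg.Agent.Helper16.PReducedSub

/-!
Members of `ℒ(G, T)` in a group of even characteristic: `F* = O_2`, generation by odd-order
elements, and monotonicity of the nontriviality of the internal module `[Ω₁(Z(O₂(Y))), Y]`.
-/

set_option autoImplicit false

namespace Cfsg.Agent.Helper12

open Subgroup Cfsg.Agent.Helper16

section QtkeLf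

variable {G : Type*} [Group G]

/-- a perfect subgroup normalizing `O`, all of whose odd-order elements lie in `O`, lies in `O` -/
theorem perfect_le_of_odd_elts [Finite G] (K O : Subgroup G) (hperf : ⁅K, K⁆ = K)
    (hKO : K ≤ normalizer (O : Set G))
    (h : ∀ a ∈ K, (orderOf a).Coprime 2 → a ∈ O) : K ≤ O := by
  have hNn : (O.subgroupOf K).Normal := Subgroup.normal_subgroupOf_of_le_normalizer hKO
  have hp : IsPGroup 2 (↥K ⧸ O.subgroupOf K) := by
    intro y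
    obtain ⟨k, rfl⟩ := QuotientGroup.mk_surjective y
    obtain ⟨e, m, hm, hkm⟩ := Nat.exists_eq_pow_mul_and_not_dvd (orderOf_pos k).ne' 2
      (by norm_num)
    refine ⟨e, ?_⟩
    rw [← QuotientGroup.mk_pow, QuotientGroup.eq_one_iff, Subgroup.mem_subgroupOf,
      Subgroup.coe_pow]
    apply h _ (K.pow_mem k.2 _)
    have h1 : ((k : G) ^ 2 ^ e) ^ m = 1 := by
      rw [← pow_mul, ← hkm, ← Subgroup.orderOf_coe, pow_orderOf_eq_one]
    have h2 : orderOf ((k : G) ^ 2 ^ e) ∣ m := orderOf_dvd_of_pow_eq_one h1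
    exact Nat.Coprime.coprime_dvd_left h2
      ((Nat.Prime.coprime_iff_not_dvd Nat.prime_two).mpr hm).symm
  have htop := Cfsg.Agent.Helper9.perfect_quotient_pgroup_top 2
    (Subgroup.isPerfect_iff.mpr hperf) _ hp
  exact Subgroup.subgroupOf_eq_top.mp htop

/-- a perfect subgroup is generated by its elements of odd order -/
theorem closure_odd_eq_of_perfect [Finite G] (K : Subgroup G) (hperf : ⁅K, K⁆ = K) :
    Subgroup.closure {x : G | x ∈ K ∧ (orderOf x).Coprime 2} = K := by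
  apply le_antisymm
  · rw [Subgroup.closure_le]; exact fun x hx => hx.1
  · refine perfect_le_of_odd_elts K (Subgroup.closure {x : G | x ∈ K ∧ (orderOf x).Coprime 2})
      hperf ?_ (fun a ha hc => Subgroup.subset_closure ⟨ha, hc⟩)
    apply le_normalizer_of_conj_mem
    intro b hb u hu
    induction hu using Subgroup.closure_induction with
    | mem s hs =>
      apply Subgroup.subset_closure
      refine ⟨K.mul_mem (K.mul_mem hb hs.1) (K.inv_mem hb), ?_⟩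
      have h1 : orderOf (b * s * b⁻¹) = orderOf s := (MulAut.conj b).orderOf_eq s
      rw [h1]; exact hs.2
    | one =>
      have e : b * 1 * b⁻¹ = 1 := by group
      rw [e]; exact Subgroup.one_mem _
    | mul x y _ _ hx hy =>
      have e : b * (x * y) * b⁻¹ = (b * x * b⁻¹) * (b * y * b⁻¹) := by group
      rw [e]; exact Subgroup.mul_mem _ hx hy
    | inv x _ hx =>
      have e : b * x⁻¹ * b⁻¹ = (b * x * b⁻¹)⁻¹ := by group
      rw [e]; exact Subgroup.inv_mem _ hx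

/-- elements of `Ω₁(Z(R))` -/
theorem omegaOne_center_mem (R : Subgroup G) {x : G}
    (hx : x ∈ Cfsg.omegaOne 2 (R ⊓ centralizer (R : Set G))) :
    x ∈ R ∧ x ∈ centralizer (R : Set G) ∧ x ^ 2 = 1 := by
  unfold Cfsg.omegaOne at hx
  induction hx using Subgroup.closure_induction with
  | mem s hs => exact ⟨hs.1.1, hs.1.2, hs.2⟩
  | one => exact ⟨R.one_mem, Subgroup.one_mem _, one_pow 2⟩
  | mul x y _ _ hx hy =>
    refine ⟨R.mul_mem hx.1 hy.1, Subgroup.mul_mem _ hx.2.1 hy.2.1, ?_⟩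
    have hc : Commute x y := Subgroup.mem_centralizer_iff.mp hy.2.1 x hx.1
    rw [hc.mul_pow, hx.2.2, hy.2.2, one_mul]
  | inv x _ hx =>
    exact ⟨R.inv_mem hx.1, Subgroup.inv_mem _ hx.2.1, by rw [inv_pow, hx.2.2, inv_one]⟩

theorem mem_omegaOne_center (R : Subgroup G) {x : G} (h1 : x ∈ R)
    (h2 : x ∈ centralizer (R : Set G)) (h3 : x ^ 2 = 1) :
    x ∈ Cfsg.omegaOne 2 (R ⊓ centralizer (R : Set G)) :=
  Subgroup.subset_closure ⟨⟨h1, h2⟩, h3⟩

theorem normalizer_le_normalizer_omegaOne_center (R : Subgroup G) :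
    normalizer (R : Set G) ≤
      normalizer ((Cfsg.omegaOne 2 (R ⊓ centralizer (R : Set G)) : Subgroup G) : Set G) := by
  apply le_normalizer_of_conj_mem
  intro n hn u hu
  obtain ⟨h1, h2, h3⟩ := omegaOne_center_mem R hu
  apply mem_omegaOne_center
  · exact (Subgroup.mem_normalizer_iff.mp hn u).mp h1
  · rw [Subgroup.mem_centralizer_iff]
    intro r hr
    have hr' : n⁻¹ * r * n ∈ R := by
      have h4 := (Subgroup.mem_normalizer_iff.mp (Subgroup.inv_mem _ hn) r).mp hr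
      rwa [inv_inv] at h4
    have hc := Subgroup.mem_centralizer_iff.mp h2 _ hr'
    calc r * (n * u * n⁻¹) = n * ((n⁻¹ * r * n) * u) * n⁻¹ := by group
      _ = n * (u * (n⁻¹ * r * n)) * n⁻¹ := by rw [hc]
      _ = n * u * n⁻¹ * r := by group
  · rw [conj_pow, h3]; group

theorem inf_le_pCoreOf_of_normalizes (Y R : Subgroup G) (hRp : IsPGroup 2 ↥R)
    (hYN : Y ≤ normalizer (R : Set G)) : Y ⊓ R ≤ Cfsg.pCoreOf 2 Y :=
  le_pCoreOf inf_le_left
    (le_normalizer_of_conj_mem (fun y hy u hu =>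
      ⟨Y.mul_mem (Y.mul_mem hy hu.1) (Y.inv_mem hy),
        (Subgroup.mem_normalizer_iff.mp (hYN hy) u).mp hu.2⟩))
    (hRp.to_le inf_le_right)

/-- the facts about a member `Y` of `ℒ(G, T)` in a group of even characteristic -/
theorem calL_facts [Finite G] (hE : Cfsg.IsOfEvenCharacteristic G) (T : Sylow 2 G)
    (Y : Subgroup G) (hY : Y ∈ Cfsg.calL (T : Subgroup G)) :
    ⁅Y, Y⁆ = Y ∧ Y ≠ ⊥ ∧
    Cfsg.pCoreOf 2 (Y ⊔ (T : Subgroup G)) ≤ (T : Subgroup G) ∧
    centralizer ((Cfsg.pCoreOf 2 (Y ⊔ (T : Subgroup G)) : Subgroup G) : Set G) ≤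
      Cfsg.pCoreOf 2 (Y ⊔ (T : Subgroup G)) ∧
    Cfsg.pCoreOf 2 (Y ⊔ (T : Subgroup G)) ≤ normalizer (Y : Set G) ∧
    Cfsg.pCoreOf 2 Y ≤ Cfsg.pCoreOf 2 (Y ⊔ (T : Subgroup G)) := by
  obtain ⟨⟨hne, hperf, hsn, -⟩, -, hO2⟩ := hY
  have hYH : Y ≤ Y ⊔ (T : Subgroup G) := le_sup_left
  have hTH : (T : Subgroup G) ≤ Y ⊔ (T : Subgroup G) := le_sup_right
  have hRp : IsPGroup 2 ↥(Cfsg.pCoreOf 2 (Y ⊔ (T : Subgroup G))) := isPGroup_pCoreOf 2 _
  have hHN := le_normalizer_pCoreOf 2 (Y ⊔ (T : Subgroup G))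
  have hperfG : ⁅Y, Y⁆ = Y := by
    have h1 := congrArg (Subgroup.map (Y ⊔ (T : Subgroup G)).subtype) hperf
    rwa [Subgroup.map_commutator, Subgroup.map_subgroupOf_eq_of_le hYH] at h1
  have hcent : centralizer ((Cfsg.pCoreOf 2 (Y ⊔ (T : Subgroup G)) : Subgroup G) : Set G) ≤
      Cfsg.pCoreOf 2 (Y ⊔ (T : Subgroup G)) := by
    have hRne : Cfsg.pCoreOf 2 (Y ⊔ (T : Subgroup G)) ≠ ⊥ := by
      intro h0
      exact hO2 ((Subgroup.map_eq_bot_iff_of_injective _ (Subgroup.subtype_injective _)).mp h0)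
    have hTM : (T : Subgroup G) ≤
        normalizer ((Cfsg.pCoreOf 2 (Y ⊔ (T : Subgroup G)) : Subgroup G) : Set G) :=
      hTH.trans hHN
    have hchar := hE (normalizer ((Cfsg.pCoreOf 2 (Y ⊔ (T : Subgroup G)) : Subgroup G) : Set G))
      ⟨_, hRp, hRne, rfl⟩ ⟨T, hTM⟩
    have h1 : Cfsg.pCoreOf 2 (normalizer ((Cfsg.pCoreOf 2 (Y ⊔ (T : Subgroup G)) : Subgroup G) :
        Set G)) ≤ Cfsg.pCoreOf 2 (Y ⊔ (T : Subgroup G)) :=
      le_pCoreOf ((pCoreOf_le_sylow T hTM).trans hTH)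
        (hHN.trans (le_normalizer_pCoreOf 2 _)) (isPGroup_pCoreOf 2 _)
    intro x hx
    have hxM : x ∈ normalizer ((Cfsg.pCoreOf 2 (Y ⊔ (T : Subgroup G)) : Subgroup G) : Set G) :=
      Subgroup.centralizer_le_normalizer _ hx
    have hx' : (⟨x, hxM⟩ : ↥(normalizer ((Cfsg.pCoreOf 2 (Y ⊔ (T : Subgroup G)) : Subgroup G) :
        Set G))) ∈ centralizer (Cfsg.pCore 2 ↥(normalizer
          ((Cfsg.pCoreOf 2 (Y ⊔ (T : Subgroup G)) : Subgroup G) : Set G)) : Set _) := by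
      rw [Subgroup.mem_centralizer_iff]
      intro y hy
      apply Subtype.ext
      exact Subgroup.mem_centralizer_iff.mp hx (y : G) (h1 (Subgroup.mem_map_of_mem _ hy))
    exact h1 ⟨_, hchar hx', rfl⟩
  refine ⟨hperfG, ?_, pCoreOf_le_sylow T hTH, hcent, ?_, ?_⟩
  · intro h0
    apply hne
    rw [h0]
    exact Subgroup.bot_subgroupOf _
  · have hres : (Cfsg.pResidual 2 ↥(Y.subgroupOf (Y ⊔ (T : Subgroup G)))).map
        (Y.subgroupOf (Y ⊔ (T : Subgroup G))).subtype = Y.subgroupOf (Y ⊔ (T : Subgroup G)) := by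
      rw [map_pResidual_eq]
      exact closure_odd_eq_of_perfect _ hperf
    have h5 := (isSubnormal_pgroup_normalizes (p := 2)
      (pCore_normal 2 ↥(Y ⊔ (T : Subgroup G))).isSubnormal hsn
      (pCore_isPGroup 2 ↥(Y ⊔ (T : Subgroup G))) hres).1
    apply le_normalizer_of_conj_mem
    rintro _ ⟨r', hr', rfl⟩ u hu
    have h6 := (Subgroup.mem_normalizer_iff.mp (h5 hr') ⟨u, hYH hu⟩).mp
      (Subgroup.mem_subgroupOf.mpr hu)
    exact Subgroup.mem_subgroupOf.mp h6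
  · have hQ' : (Cfsg.pCoreOf 2 Y).subgroupOf (Y ⊔ (T : Subgroup G)) ≤
        Cfsg.pCoreOf 2 (Y.subgroupOf (Y ⊔ (T : Subgroup G))) := by
      apply le_pCoreOf
      · intro x hx
        rw [Subgroup.mem_subgroupOf] at hx ⊢
        exact pCoreOf_le 2 Y hx
      · apply le_normalizer_of_conj_mem
        intro b hb u hu
        rw [Subgroup.mem_subgroupOf] at hb hu ⊢
        exact (Subgroup.mem_normalizer_iff.mp (le_normalizer_pCoreOf 2 Y hb) _).mp hu
      · exact (isPGroup_pCoreOf 2 Y).comap_subtype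
    have h7 := hQ'.trans (pCoreOf_le_pCore_of_isSubnormal hsn)
    intro x hx
    have hxH : x ∈ Y ⊔ (T : Subgroup G) := hYH (pCoreOf_le 2 Y hx)
    exact ⟨⟨x, hxH⟩, h7 (Subgroup.mem_subgroupOf.mpr hx), rfl⟩

/-- `C_Y(O_2(Y)) ≤ O_2(Y)` from a self-centralizing `2`-group `R` that normalizes `Y` and is
normalized by `Y`. -/
theorem cent_pCore_le_of_selfCentralizing [Finite G] (Y R : Subgroup G) (hRp : IsPGroup 2 ↥R)
    (hCR : centralizer (R : Set G) ≤ R) (hRN : R ≤ normalizer (Y : Set G))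
    (hYN : Y ≤ normalizer (R : Set G)) :
    centralizer (Cfsg.pCore 2 ↥Y : Set ↥Y) ≤ Cfsg.pCore 2 ↥Y := by
  have hYQ : Y ⊓ R ≤ Cfsg.pCoreOf 2 Y := inf_le_pCoreOf_of_normalizes Y R hRp hYN
  have hQn : (Cfsg.pCore 2 ↥Y).Normal := pCore_normal 2 ↥Y
  have hCn : (centralizer (Cfsg.pCore 2 ↥Y : Set ↥Y)).Normal := inferInstance
  refine le_pCore hCn ?_
  intro g
  obtain ⟨e, he⟩ := exists_pow_coprime (p := 2) ((g : ↥Y) : G)
  refine ⟨e, ?_⟩
  obtain ⟨x, hxdef⟩ : ∃ x : G, x = ((g : ↥Y) : G) ^ 2 ^ e := ⟨_, rfl⟩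
  rw [← hxdef] at he
  have hxY : x ∈ Y := by rw [hxdef]; exact Y.pow_mem (g : ↥Y).2 _
  have hxQ : x ∈ centralizer ((Cfsg.pCoreOf 2 Y : Subgroup G) : Set G) := by
    rw [Subgroup.mem_centralizer_iff]
    rintro _ ⟨q, hq, rfl⟩
    have h1 : (g : ↥Y) ^ 2 ^ e ∈ centralizer (Cfsg.pCore 2 ↥Y : Set ↥Y) :=
      Subgroup.pow_mem _ g.2 _
    have h2 := Subgroup.mem_centralizer_iff.mp h1 q hq
    rw [hxdef]
    exact congrArg Subtype.val h2
  have hAR : Subgroup.zpowers x ≤ normalizer (R : Set G) := by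
    rw [Subgroup.zpowers_le]; exact hYN hxY
  have hAY : Subgroup.zpowers x ≤ Y := by rw [Subgroup.zpowers_le]; exact hxY
  have hcop : (Nat.card ↥(Subgroup.zpowers x)).Coprime (Nat.card ↥R) := by
    obtain ⟨k, hk⟩ := (IsPGroup.iff_card).mp hRp
    rw [hk, Nat.card_zpowers]
    exact Nat.Coprime.pow_right k he
  have hnil : Group.IsNilpotent ↥R := hRp.isNilpotent
  have hsolv : Group.IsSolvable ↥R := inferInstance
  have hdec := coprime_le_commutator_sup_centralizer R (Subgroup.zpowers x) hAR hcop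
    (Or.inr hsolv)
  have h1 := comm_eq_comm_comm_of_dec hdec
  have h2 : ⁅R, Subgroup.zpowers x⁆ ≤ Cfsg.pCoreOf 2 Y := by
    rw [Subgroup.commutator_le]
    intro r hr a ha
    apply hYQ
    rw [commutatorElement_def]
    constructor
    · exact Y.mul_mem ((Subgroup.mem_normalizer_iff.mp (hRN hr) a).mp (hAY ha))
        (Y.inv_mem (hAY ha))
    · have e1 : r * a * r⁻¹ * a⁻¹ = r * (a * r⁻¹ * a⁻¹) := by group
      rw [e1]
      exact R.mul_mem hr ((Subgroup.mem_normalizer_iff.mp (hAR ha) r⁻¹).mp (R.inv_mem hr))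
  have h3 : ⁅Cfsg.pCoreOf 2 Y, Subgroup.zpowers x⁆ = ⊥ := by
    rw [Subgroup.commutator_eq_bot_iff_le_centralizer, Subgroup.le_centralizer_iff,
      Subgroup.zpowers_le]
    exact hxQ
  have h4 : ⁅R, Subgroup.zpowers x⁆ = ⊥ := by
    rw [h1, eq_bot_iff, ← h3]
    exact Subgroup.commutator_mono h2 le_rfl
  have hxR : x ∈ R := by
    apply hCR
    have h5 : Subgroup.zpowers x ≤ centralizer (R : Set G) := by
      rw [← Subgroup.le_centralizer_iff, ← Subgroup.commutator_eq_bot_iff_le_centralizer]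
      exact h4
    exact h5 (Subgroup.mem_zpowers x)
  obtain ⟨k, hk⟩ := hRp ⟨x, hxR⟩
  have hk' : x ^ 2 ^ k = 1 := congrArg Subtype.val hk
  have h6 : orderOf x = 1 :=
    Nat.Coprime.eq_one_of_dvd (Nat.Coprime.pow_right k he) (orderOf_dvd_of_pow_eq_one hk')
  have hx1 : x = 1 := orderOf_eq_one_iff.mp h6
  apply Subtype.ext
  apply Subtype.ext
  rw [Subgroup.coe_pow, Subgroup.coe_pow, ← hxdef, hx1]
  rfl

/-- the abstract form of the comparison of internal modules -/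
theorem moduleV_abstract [Finite G] (L K RL RK QL QK : Subgroup G) (hLK : L ≤ K)
    (hLperf : ⁅L, L⁆ = L) (hKperf : ⁅K, K⁆ = K)
    (hRKRL : RK ≤ RL) (hCRK : centralizer (RK : Set G) ≤ RK)
    (hRKN : RK ≤ normalizer (K : Set G)) (hRLN : RL ≤ normalizer (L : Set G))
    (hQRK : QK ≤ RK) (hQRL : QL ≤ RL)
    (hKNRK : K ≤ normalizer (RK : Set G)) (hLNRL : L ≤ normalizer (RL : Set G))
    (hRLp : IsPGroup 2 ↥RL) (hKQ : K ⊓ RK ≤ QK) (hLQ : L ⊓ RL ≤ QL)
    (hLNQ : normalizer (L : Set G) ≤ normalizer (QL : Set G))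
    (hVK : ⁅Cfsg.omegaOne 2 (QK ⊓ centralizer (QK : Set G)), K⁆ = ⊥) :
    ⁅Cfsg.omegaOne 2 (QL ⊓ centralizer (QL : Set G)), L⁆ = ⊥ := by
  -- `K` centralizes `Ω₁(Z(R_K))`
  have hAKK : ⁅Cfsg.omegaOne 2 (RK ⊓ centralizer (RK : Set G)), K⁆ ≤
      Cfsg.omegaOne 2 (QK ⊓ centralizer (QK : Set G)) := by
    rw [Subgroup.commutator_le]
    intro a ha k hk
    obtain ⟨ha1, -, -⟩ := omegaOne_center_mem RK ha
    rw [commutatorElement_def]
    have hcK : a * k * a⁻¹ * k⁻¹ ∈ K :=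
      K.mul_mem ((Subgroup.mem_normalizer_iff.mp (hRKN ha1) k).mp hk) (K.inv_mem hk)
    have hcA : a * k * a⁻¹ * k⁻¹ ∈ Cfsg.omegaOne 2 (RK ⊓ centralizer (RK : Set G)) := by
      have e1 : a * k * a⁻¹ * k⁻¹ = a * (k * a⁻¹ * k⁻¹) := by group
      rw [e1]
      exact Subgroup.mul_mem _ ha ((Subgroup.mem_normalizer_iff.mp
        (normalizer_le_normalizer_omegaOne_center RK (hKNRK hk)) a⁻¹).mp (Subgroup.inv_mem _ ha))
    obtain ⟨hc1, hc2, hc3⟩ := omegaOne_center_mem RK hcA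
    exact mem_omegaOne_center QK (hKQ ⟨hcK, hc1⟩)
      (Subgroup.centralizer_le (SetLike.coe_subset_coe.mpr hQRK) hc2) hc3
  have h3a : ⁅⁅Cfsg.omegaOne 2 (RK ⊓ centralizer (RK : Set G)), K⁆, K⁆ = ⊥ :=
    le_bot_iff.mp ((Subgroup.commutator_mono hAKK le_rfl).trans (le_of_eq hVK))
  have h3b : ⁅⁅K, Cfsg.omegaOne 2 (RK ⊓ centralizer (RK : Set G))⁆, K⁆ = ⊥ := by
    rw [Subgroup.commutator_comm K]; exact h3a
  have hKAK : ⁅K, Cfsg.omegaOne 2 (RK ⊓ centralizer (RK : Set G))⁆ = ⊥ := by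
    have h4 := Subgroup.commutator_commutator_eq_bot_of_rotate h3b h3a
    rwa [hKperf] at h4
  -- `Ω₁(Z(R_L)) ≤ Ω₁(Z(R_K))`
  have hLAL : ∀ l ∈ L, ∀ v : G, v ∈ RL → v ∈ centralizer (RL : Set G) → v ^ 2 = 1 →
      l * v = v * l := by
    intro l hl v hv1 hv2 hv3
    have hv2' : v ∈ centralizer (RK : Set G) :=
      Subgroup.centralizer_le (SetLike.coe_subset_coe.mpr hRKRL) hv2
    exact (Cfsg.Agent.Helper9.comm_eq_bot_iff _ _).mp hKAK l (hLK hl) v
      (mem_omegaOne_center RK (hCRK hv2') hv2' hv3)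
  -- the `A × B` argument
  have hLgen := closure_odd_eq_of_perfect L hLperf
  have hLc : L ≤ centralizer ((Cfsg.omegaOne 2 (QL ⊓ centralizer (QL : Set G)) : Subgroup G) :
      Set G) := by
    nth_rewrite 1 [← hLgen]
    rw [Subgroup.closure_le]
    rintro x ⟨hxL, hxodd⟩
    have hQLc : QL ≤ centralizer ((Cfsg.omegaOne 2 (QL ⊓ centralizer (QL : Set G)) :
        Subgroup G) : Set G) := by
      intro q hq
      rw [Subgroup.mem_centralizer_iff]
      intro v hv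
      obtain ⟨-, hv2, -⟩ := omegaOne_center_mem QL hv
      exact (Subgroup.mem_centralizer_iff.mp hv2 q hq).symm
    refine axb_mod (p := 2) (A := Cfsg.omegaOne 2 (QL ⊓ centralizer (QL : Set G))) (D := RL)
      ?_ ?_ ?_ ?_ ?_ hxodd ?_ ?_
    · intro a ha b hb
      obtain ⟨ha1, -, -⟩ := omegaOne_center_mem QL ha
      obtain ⟨-, hb2, -⟩ := omegaOne_center_mem QL hb
      exact Subgroup.mem_centralizer_iff.mp hb2 a ha1
    · intro a ha
      exact (omegaOne_center_mem QL ha).2.2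
    · exact hRLN.trans (hLNQ.trans (normalizer_le_normalizer_omegaOne_center QL))
    · intro d hd
      obtain ⟨k, hk⟩ := hRLp ⟨d, hd⟩
      refine ⟨k, ?_⟩
      have hk' : d ^ 2 ^ k = 1 := congrArg Subtype.val hk
      rw [hk']
      exact Subgroup.one_mem _
    · exact normalizer_le_normalizer_omegaOne_center QL (hLNQ (Subgroup.le_normalizer hxL))
    · intro d hd
      apply hQLc
      apply hLQ
      constructor
      · exact L.mul_mem ((Subgroup.mem_normalizer_iff.mp (hRLN hd) x).mp hxL) (L.inv_mem hxL)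
      · have e1 : d * x * d⁻¹ * x⁻¹ = d * (x * d⁻¹ * x⁻¹) := by group
        rw [e1]
        exact RL.mul_mem hd ((Subgroup.mem_normalizer_iff.mp (hLNRL hxL) d⁻¹).mp (RL.inv_mem hd))
    · rw [Subgroup.mem_centralizer_iff]
      rintro v ⟨hv, hvR⟩
      obtain ⟨hv1, -, hv3⟩ := omegaOne_center_mem QL hv
      exact (hLAL x hxL v (hQRL hv1) hvR hv3).symm
  rw [Subgroup.commutator_comm, Subgroup.commutator_eq_bot_iff_le_centralizer]
  exact hLc

/-- `ℒ_f(G, T)` is closed upward inside `ℒ(G, T)` in a group of even characteristic. -/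
theorem calLf_upward [Finite G] (hE : Cfsg.IsOfEvenCharacteristic G) (T : Sylow 2 G)
    (L K : Subgroup G) (hL : L ∈ Cfsg.calLf (T : Subgroup G))
    (hK : K ∈ Cfsg.calL (T : Subgroup G)) (hLK : L ≤ K) : K ∈ Cfsg.calLf (T : Subgroup G) := by
  obtain ⟨hLL, ⟨-, hVL⟩⟩ := hL
  obtain ⟨hLperf, -, -, -, hRLN, hQRL⟩ := calL_facts hE T L hLL
  obtain ⟨hKperf, hKne, hRKT, hCRK, hRKN, hQRK⟩ := calL_facts hE T K hK
  have hHKN := le_normalizer_pCoreOf 2 (K ⊔ (T : Subgroup G))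
  have hHLN := le_normalizer_pCoreOf 2 (L ⊔ (T : Subgroup G))
  have hRKp : IsPGroup 2 ↥(Cfsg.pCoreOf 2 (K ⊔ (T : Subgroup G))) := isPGroup_pCoreOf 2 _
  have hRLp : IsPGroup 2 ↥(Cfsg.pCoreOf 2 (L ⊔ (T : Subgroup G))) := isPGroup_pCoreOf 2 _
  have hKNR : K ≤ normalizer ((Cfsg.pCoreOf 2 (K ⊔ (T : Subgroup G)) : Subgroup G) : Set G) :=
    le_sup_left.trans hHKN
  have hLNR : L ≤ normalizer ((Cfsg.pCoreOf 2 (L ⊔ (T : Subgroup G)) : Subgroup G) : Set G) :=
    le_sup_left.trans hHLN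
  refine ⟨hK, ⟨hKne, ?_, ?_⟩, ?_⟩
  · have h1 := closure_odd_eq_of_perfect K hKperf
    show Subgroup.closure {x : G | x ∈ K ∧ Odd (orderOf x)} = K
    have h2 : {x : G | x ∈ K ∧ Odd (orderOf x)} = {x : G | x ∈ K ∧ (orderOf x).Coprime 2} := by
      ext x; simp [Nat.coprime_two_right]
    rw [h2]; exact h1
  · show Cfsg.generalizedFittingSubgroup ↥K = Cfsg.pCore 2 ↥K
    exact genFitting_eq_pCore_of_cent
      (cent_pCore_le_of_selfCentralizing K _ hRKp hCRK hRKN hKNR)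
  · intro hVK
    apply hVL
    have hRKRL : Cfsg.pCoreOf 2 (K ⊔ (T : Subgroup G)) ≤
        Cfsg.pCoreOf 2 (L ⊔ (T : Subgroup G)) :=
      le_pCoreOf (hRKT.trans le_sup_right)
        ((sup_le (hLK.trans le_sup_left) le_sup_right).trans hHKN) hRKp
    exact moduleV_abstract L K _ _ (Cfsg.pCoreOf 2 L) (Cfsg.pCoreOf 2 K) hLK hLperf hKperf
      hRKRL hCRK hRKN hRLN hQRK hQRL hKNR hLNR hRLp
      (inf_le_pCoreOf_of_normalizes K _ hRKp hKNR) (inf_le_pCoreOf_of_normalizes L _ hRLp hLNR)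
      (normalizer_le_normalizer_pCoreOf 2 L) hVK

end QtkeLf

end Cfsg.Agent.Helper12
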